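import Cfsg.Agent.H69.SFour.Best
import Cfsg.Agent.H83.Involves
import Mathlib

/-!
Common definitions for the theorem that an `S₃`-free group without normal 2-subgroups has no
offenders on a faithful elementary abelian 2-group.

`Ctx φ A g k W M` is the situation met in a least counterexample: the group is generated by a least
offender `A` and `A^g`, the subgroup `M` containing `A` is the only maximal subgroup over `A`, and `M`
leaves invariant the subgroup `W`, which `A` centralizes.
-/

set_option autoImplicit false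
set_option linter.style.haveILetI false

namespace Cfsg.Agent.H96.Offender

open Cfsg.Agent.H83 (fixedSub delta)
open Cfsg.Agent.H61 (cj)

universe u

/-- All configurations of size less than `n` have no offender. -/
def Below (n : ℕ) : Prop :=
  ∀ (H V : Type u) [Group H] [CommGroup V] [Finite H] [Finite V] (φ : H →* MulAut V),
    Nat.card H + Nat.card V < n → Function.Injective φ → (∀ v : V, v * v = 1) →
    ¬ Cfsg.Involves (Equiv.Perm (Fin 3)) H → Cfsg.pCore 2 H = ⊥ →
    ∀ A : Subgroup H, Cfsg.IsElementaryAbelian 2 A →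
    Nat.card V ≤ Nat.card A * Nat.card (fixedSub φ (A : Set H)) → A = ⊥

variable {H V : Type*} [Group H] [CommGroup V]

/-- The stabilizer of a subgroup of the module. -/
def normSub (φ : H →* MulAut V) (W : Subgroup V) : Subgroup H where
  carrier := {h | W.map (φ h).toMonoidHom = W}
  one_mem' := by
    show W.map (φ 1).toMonoidHom = W
    rw [map_one]; exact Subgroup.map_id W
  mul_mem' := fun {p q} hp hq => by
    show W.map (φ (p * q)).toMonoidHom = W
    conv_rhs => rw [← hp, ← hq, Subgroup.map_map]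
    rw [map_mul]; rfl
  inv_mem' := fun {p} hp => by
    show W.map (φ p⁻¹).toMonoidHom = W
    conv_lhs => rw [← hp, Subgroup.map_map]
    convert Subgroup.map_id W using 2
    ext v
    simp

theorem mem_of_mem_normSub {φ : H →* MulAut V} {W : Subgroup V} {h : H} (hh : h ∈ normSub φ W)
    {w : V} (hw : w ∈ W) : φ h w ∈ W :=
  (show W.map (φ h).toMonoidHom = W from hh).le ⟨w, hw, rfl⟩

theorem mem_normSub [Finite V] {φ : H →* MulAut V} {W : Subgroup V} {h : H}
    (hh : ∀ w ∈ W, φ h w ∈ W) : h ∈ normSub φ W :=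
  Subgroup.eq_of_le_of_card_ge (by rintro _ ⟨w, hw, rfl⟩; exact hh w hw)
    (Subgroup.card_map_of_injective (φ h).injective).ge

/-- The local situation of a least counterexample. -/
structure Ctx (φ : H →* MulAut V) (A : Subgroup H) (g : H) (k : ℕ) (W : Subgroup V)
    (M : Subgroup H) : Prop where
  inj : Function.Injective φ
  sq : ∀ v : V, v * v = 1
  s3 : ¬ Cfsg.Involves (Equiv.Perm (Fin 3)) H
  invol : ∀ a ∈ A, a * a = 1
  card : Nat.card A = k
  quad : ∀ a ∈ A, ∀ v : V, delta φ a v ∈ fixedSub φ (A : Set H)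
  off : Nat.card V ≤ k * Nat.card (fixedSub φ (A : Set H))
  min : ∀ B : Subgroup H, (∀ b ∈ B, b * b = 1) → B ≠ ⊥ → Nat.card B < k →
    Nat.card B * Nat.card (fixedSub φ (B : Set H)) < Nat.card V
  gen : A ⊔ cj g A = ⊤
  le_M : A ≤ M
  not_le_M : ¬ cj g A ≤ M
  uniq : ∀ Y : Subgroup H, A ≤ Y → Y ≠ ⊤ → Y ≤ M
  inv_W : ∀ m ∈ M, ∀ w ∈ W, φ m w ∈ W
  fix_W : W ≤ fixedSub φ (A : Set H)
  W_ne : W ≠ ⊥

end Cfsg.Agent.H96.Offender
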