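import Cfsg.Agent.H96.Offender.Sub
import Cfsg.Agent.H19.Cores
import Cfsg.Agent.H83.GoodLocal
import Mathlib

/-!
In the local situation of a least counterexample, the part of `A` inside the largest normal
2-subgroup moves every invariant subgroup above the fixed points.
-/

set_option autoImplicit false
set_option linter.style.haveILetI false
set_option maxHeartbeats 400000

namespace Cfsg.Agent.H96.Offender

open Cfsg.Agent.H83 (fixedSub delta delta_apply mem_fixedSub)
open Cfsg.Agent.H61 (cj cj_cj cj_one cj_mono card_cj mem_cj conj_mem_cj cj_normal cj_eq_self)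
open Cfsg.Agent.H50.QuadraticOffender (stabMod mem_stabMod delta_mul)

universe u

section Action

variable {H V : Type*} [Group H] [CommGroup V]

/-- The endomorphism induced on a section. -/
def quotEnd (φ : H →* MulAut V) (N I : Subgroup V) (hN : ∀ h, ∀ v ∈ N, φ h v ∈ N)
    (hI : ∀ h, ∀ v ∈ I, φ h v ∈ I) (h : H) :
    N ⧸ I.subgroupOf N →* N ⧸ I.subgroupOf N :=
  QuotientGroup.map _ _ (((φ h).toMonoidHom.comp N.subtype).codRestrict N fun v => hN h v v.2)
    fun v hv => Subgroup.mem_subgroupOf.2 (hI h v (Subgroup.mem_subgroupOf.1 hv))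

/-- The action on a section. -/
def quotAct (φ : H →* MulAut V) (N I : Subgroup V) (hN : ∀ h, ∀ v ∈ N, φ h v ∈ N)
    (hI : ∀ h, ∀ v ∈ I, φ h v ∈ I) : H →* MulAut (N ⧸ I.subgroupOf N) where
  toFun h :=
    { toFun := quotEnd φ N I hN hI h
      invFun := quotEnd φ N I hN hI h⁻¹
      left_inv := fun x => QuotientGroup.induction_on x fun v =>
        congrArg QuotientGroup.mk (Subtype.ext (show φ h⁻¹ (φ h (v : V)) = v by
          rw [map_inv, MulAut.inv_apply_self]))
      right_inv := fun x => QuotientGroup.induction_on x fun v =>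
        congrArg QuotientGroup.mk (Subtype.ext (show φ h (φ h⁻¹ (v : V)) = v by
          rw [map_inv, MulAut.apply_inv_self]))
      map_mul' := map_mul _ }
  map_one' := MulEquiv.ext fun x => QuotientGroup.induction_on x fun v =>
    congrArg QuotientGroup.mk (Subtype.ext (show φ 1 (v : V) = v by simp))
  map_mul' h h' := MulEquiv.ext fun x => QuotientGroup.induction_on x fun v =>
    congrArg QuotientGroup.mk (Subtype.ext (show φ (h * h') (v : V) = φ h (φ h' v) by simp))

theorem quotAct_mk (φ : H →* MulAut V) (N I : Subgroup V) (hN : ∀ h, ∀ v ∈ N, φ h v ∈ N)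
    (hI : ∀ h, ∀ v ∈ I, φ h v ∈ I) (h : H) (v : N) :
    quotAct φ N I hN hI h (v : N ⧸ I.subgroupOf N) =
      ((⟨φ h v, hN h v v.2⟩ : N) : N ⧸ I.subgroupOf N) := rfl

theorem quotAct_fix_iff (φ : H →* MulAut V) (N I : Subgroup V) (hN : ∀ h, ∀ v ∈ N, φ h v ∈ N)
    (hI : ∀ h, ∀ v ∈ I, φ h v ∈ I) (h : H) (v : N) :
    quotAct φ N I hN hI h (v : N ⧸ I.subgroupOf N) = v ↔ delta φ h v ∈ I := by
  rw [quotAct_mk, QuotientGroup.eq_iff_div_mem, Subgroup.mem_subgroupOf]
  rfl

theorem mem_normalizer_of_le [Finite H] {X : Subgroup H} {a : H}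
    (h : ∀ y ∈ X, a * y * a⁻¹ ∈ X) : a ∈ Subgroup.normalizer (X : Set H) :=
  Subgroup.mem_normalizer_iff_map_conj_eq.2 (Subgroup.eq_of_le_of_card_ge
    (by rintro _ ⟨y, hy, rfl⟩; exact h y hy)
    (Subgroup.card_map_of_injective (MulAut.conj a).injective).ge)

theorem card_section [Finite V] {N I : Subgroup V} (h : I ≤ N) :
    Nat.card (N ⧸ I.subgroupOf N) * Nat.card I = Nat.card N := by
  rw [← Nat.card_congr (Subgroup.subgroupOfEquivOfLe h).toEquiv]
  exact (Subgroup.card_eq_card_quotient_mul_card_subgroup _).symm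

end Action

namespace Ctx

variable {H V : Type u} [Group H] [CommGroup V] [Finite H] [Finite V]
variable {φ : H →* MulAut V} {A M : Subgroup H} {g : H} {k : ℕ} {W : Subgroup V}

omit [Finite H] [Finite V] in
theorem cj_M (_c : Ctx φ A g k W M) {x : H} (hx : x ∈ M) : cj x M = M :=
  cj_eq_self (Subgroup.le_normalizer hx)

omit [Finite V] in
theorem not_isPGroup (c : Ctx φ A g k W M) : ¬ IsPGroup 2 H := by
  intro h2
  haveI : Fact (Nat.Prime 2) := ⟨Nat.prime_two⟩
  haveI : Group.IsNilpotent H := h2.isNilpotent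
  have h := Group.normalizerCondition_of_isNilpotent M (lt_top_iff_ne_top.2 c.M_ne_top)
  have htop : Subgroup.normalizer (M : Set H) = ⊤ := by
    by_contra hne
    exact absurd (c.uniq _ (c.le_M.trans Subgroup.le_normalizer) hne) (not_le_of_gt h)
  refine c.not_le_M ?_
  rw [← cj_eq_self (htop.symm ▸ Subgroup.mem_top g : g ∈ Subgroup.normalizer (M : Set H))]
  exact cj_mono g c.le_M

theorem pCore_le_M (c : Ctx φ A g k W M) : Cfsg.pCore 2 H ≤ M := by
  haveI := H19.pCore_characteristic 2 H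
  refine le_trans le_sup_right (c.uniq (A ⊔ Cfsg.pCore 2 H) le_sup_left fun e => c.not_isPGroup ?_)
  have hA : IsPGroup 2 A := fun a =>
    ⟨1, Subtype.ext (by rw [SubmonoidClass.coe_pow, pow_one, pow_two]; exact c.invol a a.2)⟩
  have h2 := hA.to_sup_of_normal_right (H19.pCore_isPGroup (G := H) 2)
  rw [e] at h2
  exact h2.of_equiv Subgroup.topEquiv

theorem not_le_pCore (c : Ctx φ A g k W M) : ¬ A ≤ Cfsg.pCore 2 H := fun h => by
  haveI := H19.pCore_characteristic 2 H
  refine c.not_le_M (le_trans ?_ c.pCore_le_M)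
  rw [← cj_normal g (Cfsg.pCore 2 H)]
  exact cj_mono g h

theorem sup_ne_univ (c : Ctx φ A g k W M) :
    fixedSub φ (A : Set H) ⊔ fixedSub φ (cj g A : Set H) ≠ fixedSub φ (Set.univ : Set H) := by
  intro e
  have hA : fixedSub φ (A : Set H) ≤ fixedSub φ (Set.univ : Set H) := e ▸ le_sup_left
  have hT : fixedSub φ (cj g A : Set H) ≤ fixedSub φ (Set.univ : Set H) := e ▸ le_sup_right
  have hall : ∀ (h : H) (v : V), delta φ h v ∈ fixedSub φ (Set.univ : Set H) := fun h v => by
    have hle : A ⊔ cj g A ≤ stabMod φ (fixedSub φ (Set.univ : Set H)) le_rfl v :=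
      sup_le (fun a ha => mem_stabMod.2 (hA (c.quad a ha v)))
        (fun a ha => mem_stabMod.2 (hT (c.quad_cj g ha v)))
    exact mem_stabMod.1 (hle (c.gen.symm ▸ Subgroup.mem_top h))
  refine c.not_isPGroup fun h => ⟨1, c.inj (MulEquiv.ext fun v => ?_)⟩
  have h1 : delta φ (h * h) v = 1 := by
    rw [delta_mul, hall h v h trivial, c.sq]
  rw [delta_apply, div_eq_one] at h1
  rw [pow_one, pow_two, h1, map_one, MulAut.one_apply]

/-- Minimality of `A` against the subgroups fixing an invariant subgroup. -/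
theorem card_mul_width_le (c : Ctx φ A g k W M) {N : Subgroup V} (hN : IsSub φ A g N)
    {B : Subgroup H} (hB : B ≤ A) (hne : B ≠ A) (hfix : N ≤ fixedSub φ (B : Set H)) :
    Nat.card B * width φ A N ≤ k := by
  by_cases hB0 : B = ⊥
  · rw [hB0, Subgroup.card_bot, one_mul]; exact c.width_le hN
  have hlt : Nat.card B < k := c.card ▸ H61.card_lt_of_lt (lt_of_le_of_ne hB hne)
  have hCN : Nat.card (fixedSub φ (A : Set H)) * width φ A N ≤
      Nat.card (fixedSub φ (B : Set H)) := by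
    rw [← c.card_sup_fixed hN]
    exact Subgroup.card_le_of_le (sup_le (fun v hv b hb => hv b (hB hb)) hfix)
  have h := (c.min B (fun b hb => c.invol b (hB hb)) hB0 hlt).trans_le c.off
  refine Nat.le_of_mul_le_mul_right ?_ (Nat.card_pos : 0 < Nat.card (fixedSub φ (A : Set H)))
  calc Nat.card B * width φ A N * Nat.card (fixedSub φ (A : Set H))
      = Nat.card B * (Nat.card (fixedSub φ (A : Set H)) * width φ A N) := by ring
    _ ≤ Nat.card B * Nat.card (fixedSub φ (B : Set H)) := Nat.mul_le_mul_left _ hCN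
    _ ≤ _ := h.le

theorem bound (c : Ctx φ A g k W M) (n : ℕ) (hbelow : Below.{u} n)
    (hn : Nat.card H + Nat.card V < n) {V₁ : Subgroup V} (h1 : IsSub φ A g V₁)
    (hne : V₁ ≠ fixedSub φ (Set.univ : Set H))
    (hirr : ∀ X ≤ V₁, IsSub φ A g X → X = fixedSub φ (Set.univ : Set H) ∨ X = V₁) :
    k < Nat.card (A ⊓ Cfsg.pCore 2 H : Subgroup H) * width φ A V₁ := by
  haveI : Fact (Nat.Prime 2) := ⟨Nat.prime_two⟩
  set I := fixedSub φ (Set.univ : Set H) with hI
  have hIinv : ∀ h, ∀ v ∈ I, φ h v ∈ I := fun h v hv => by rw [hv h trivial]; exact hv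
  set ψ := quotAct φ V₁ I h1.inv hIinv with hψ
  have hmemK : ∀ {h : H}, h ∈ ψ.ker → ∀ v ∈ V₁, delta φ h v ∈ I := fun {h} hh v hv =>
    (quotAct_fix_iff φ V₁ I h1.inv hIinv h ⟨v, hv⟩).1 (by
      show ψ h _ = _
      rw [MonoidHom.mem_ker.1 hh, MulAut.one_apply])
  have hA2 : IsPGroup 2 A := fun a =>
    ⟨1, Subtype.ext (by rw [SubmonoidClass.coe_pow, pow_one, pow_two]; exact c.invol a a.2)⟩
  -- the kernel lies in `M`
  have hKA : A ⊔ ψ.ker ≠ ⊤ := fun e => hne (c.eq_univ_of_inf_le h1 fun v hv => by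
    refine c.mem_univ (x := 1) (by rw [cj_one]; exact hv.2) fun h => ?_
    have hle : A ⊔ ψ.ker ≤ stabMod φ I le_rfl v :=
      sup_le (fun a ha => mem_stabMod.2 (by rw [delta_apply, hv.2 a ha, div_self']; exact one_mem _))
        (fun h hh => mem_stabMod.2 (hmemK hh v hv.1))
    exact mem_stabMod.1 (hle (e ▸ Subgroup.mem_top h)))
  have hKM : ψ.ker ≤ M := le_sup_right.trans (c.uniq _ le_sup_left hKA)
  -- the action is faithful on the section, without normal 2-subgroups
  have hU : 1 < Nat.card (V₁ ⧸ I.subgroupOf V₁) := by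
    refine Nat.lt_of_le_of_ne Nat.card_pos fun e => hne ?_
    refine (Subgroup.eq_of_le_of_card_ge h1.ge ?_).symm
    rw [← card_section h1.ge, ← e, one_mul]
  have hUsq : ∀ u : V₁ ⧸ I.subgroupOf V₁, u * u = 1 := fun u =>
    QuotientGroup.induction_on u fun v => congrArg QuotientGroup.mk (Subtype.ext (c.sq (v : V)))
  have hcore : Cfsg.pCore 2 ψ.range = ⊥ := by
    set P := Cfsg.pCore 2 ψ.range with hP
    haveI : P.Normal := by
      haveI := H19.pCore_characteristic 2 ψ.range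
      exact inferInstance
    set F := fixedSub ψ.range.subtype (P : Set ψ.range) with hF
    letI : MulAction P (V₁ ⧸ I.subgroupOf V₁) := MulAction.compHom _ (ψ.range.subtype.comp P.subtype)
    obtain ⟨u, hu, hu1⟩ : ∃ u, u ∈ F ∧ u ≠ 1 := by
      have hdvd : 2 ∣ Nat.card (V₁ ⧸ I.subgroupOf V₁) := by
        haveI : Nontrivial (V₁ ⧸ I.subgroupOf V₁) := Finite.one_lt_card_iff_nontrivial.1 hU
        obtain ⟨w, hw⟩ := exists_ne (1 : V₁ ⧸ I.subgroupOf V₁)
        rw [← orderOf_eq_prime (x := w) (p := 2) (by rw [pow_two]; exact hUsq w) hw]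
        exact orderOf_dvd_natCard w
      have hone : (1 : V₁ ⧸ I.subgroupOf V₁) ∈ MulAction.fixedPoints P (V₁ ⧸ I.subgroupOf V₁) :=
        fun p => map_one (((p : ψ.range) : MulAut (V₁ ⧸ I.subgroupOf V₁)).toMonoidHom)
      obtain ⟨u, hu, hne'⟩ :=
        (H19.pCore_isPGroup (G := ψ.range) 2).exists_fixed_point_of_prime_dvd_card_of_fixed_point
          _ hdvd hone
      exact ⟨u, fun p hp => hu ⟨p, hp⟩, fun e => hne' e.symm⟩
    set X := (F.comap (QuotientGroup.mk' (I.subgroupOf V₁))).map V₁.subtype with hX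
    have hXs : IsSub φ A g X := by
      refine ⟨?_, fun v hv => ?_, fun v hv => h1.le (Subgroup.map_subtype_le _ hv)⟩
      · rintro h _ ⟨v, hv, rfl⟩
        refine ⟨⟨φ h v, h1.inv h v v.2⟩, fun p hp => ?_, rfl⟩
        let q : ψ.range := ⟨ψ h, h, rfl⟩
        have hp' := hv (q⁻¹ * p * q) (by simpa using Subgroup.Normal.conj_mem ‹P.Normal› p hp q⁻¹)
        show (p : MulAut _) (ψ h (v : V₁ ⧸ I.subgroupOf V₁)) = ψ h (v : V₁ ⧸ I.subgroupOf V₁)
        conv_rhs => rw [show ((v : V₁) : V₁ ⧸ I.subgroupOf V₁) = QuotientGroup.mk' _ v from rfl, ← hp']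
        show _ = ψ h (((q⁻¹ * p * q : ψ.range) : MulAut _) _)
        rw [← MulAut.mul_apply, ← MulAut.mul_apply, Subgroup.coe_mul, Subgroup.coe_mul,
          Subgroup.coe_inv, ← mul_assoc, ← mul_assoc, mul_inv_cancel, one_mul]
        rfl
      · refine ⟨⟨v, h1.ge hv⟩, ?_, rfl⟩
        show ((⟨v, h1.ge hv⟩ : V₁) : V₁ ⧸ I.subgroupOf V₁) ∈ F
        rw [(QuotientGroup.eq_one_iff _).2 (Subgroup.mem_subgroupOf.2 hv)]
        exact one_mem _
    rcases hirr X (Subgroup.map_subtype_le _) hXs with e | e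
    · exfalso
      obtain ⟨v, rfl⟩ := QuotientGroup.mk'_surjective _ u
      have hvI : (v : V) ∈ I := e ▸ (⟨v, hu, rfl⟩ : (v : V) ∈ X)
      exact hu1 ((QuotientGroup.eq_one_iff _).2 (Subgroup.mem_subgroupOf.2 hvI))
    · refine (Subgroup.eq_bot_iff_forall P).2 fun p hp => Subtype.ext (MulEquiv.ext fun u => ?_)
      obtain ⟨v, rfl⟩ := QuotientGroup.mk'_surjective _ u
      have hvX : (v : V) ∈ X := e.symm ▸ v.2
      obtain ⟨w, hw, hwv⟩ := hvX
      rw [← V₁.subtype_injective hwv]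
      exact hw p hp
  -- so the image of `A` is no offender
  set A₁ := A.map ψ.rangeRestrict with hA₁
  have hA₁ne : A₁ ≠ ⊥ := fun e => c.not_le_M (by
    have hAK : A ≤ ψ.ker := fun a ha => by
      have : ψ.rangeRestrict a ∈ A₁ := Subgroup.mem_map_of_mem _ ha
      rw [e, Subgroup.mem_bot] at this
      exact congrArg Subtype.val this
    exact ((cj_mono g hAK).trans (cj_normal g ψ.ker).le).trans hKM)
  have hnoff : Nat.card A₁ * Nat.card (fixedSub ψ.range.subtype (A₁ : Set ψ.range)) <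
      Nat.card (V₁ ⧸ I.subgroupOf V₁) := by
    by_contra hle
    push Not at hle
    refine hA₁ne (hbelow ψ.range (V₁ ⧸ I.subgroupOf V₁) ψ.range.subtype ?_
      Subtype.val_injective hUsq
      (fun h => c.s3 (H83.involves_of_surjective_hom ψ.rangeRestrict ψ.rangeRestrict_surjective h))
      hcore A₁ ⟨?_, ?_⟩ hle)
    · refine lt_of_le_of_lt (Nat.add_le_add ?_ ?_) hn
      · exact Nat.card_le_card_of_surjective _ ψ.rangeRestrict_surjective
      · exact (Nat.card_le_card_of_surjective _ (QuotientGroup.mk'_surjective _)).trans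
          (Subgroup.card_le_card_group V₁)
    · exact ⟨⟨by
        rintro ⟨_, a, ha, rfl⟩ ⟨_, b, hb, rfl⟩
        refine Subtype.ext ?_
        show ψ.rangeRestrict a * ψ.rangeRestrict b = ψ.rangeRestrict b * ψ.rangeRestrict a
        rw [← map_mul, ← map_mul]
        have h2 := inv_eq_of_mul_eq_one_right (c.invol _ (mul_mem ha hb))
        rw [mul_inv_rev, inv_eq_of_mul_eq_one_right (c.invol a ha),
          inv_eq_of_mul_eq_one_right (c.invol b hb)] at h2
        rw [h2]⟩⟩
    · rintro _ ⟨a, ha, rfl⟩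
      rw [pow_two, ← map_mul, c.invol a ha, map_one]
  have hfix : width φ A V₁ ≤ Nat.card (fixedSub ψ.range.subtype (A₁ : Set ψ.range)) := by
    set X := (V₁ ⊓ fixedSub φ (A : Set H)).subgroupOf V₁ with hX
    have hle : X.map (QuotientGroup.mk' (I.subgroupOf V₁)) ≤
        fixedSub ψ.range.subtype (A₁ : Set ψ.range) := by
      rintro _ ⟨v, hv, rfl⟩ _ ⟨a, ha, rfl⟩
      refine (quotAct_fix_iff φ V₁ I h1.inv hIinv a v).2 ?_
      rw [delta_apply, (Subgroup.mem_subgroupOf.1 hv).2 a ha, div_self']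
      exact one_mem _
    refine le_trans ?_ (Subgroup.card_le_of_le hle)
    rw [width, ← Subgroup.relIndex_ker (f := QuotientGroup.mk' (I.subgroupOf V₁)) X,
      QuotientGroup.ker_mk', Subgroup.relIndex_subgroupOf inf_le_left]
  have hA₁lt : Nat.card A₁ < width φ A V₁ := by
    have hsq : Nat.card (V₁ ⧸ I.subgroupOf V₁) = width φ A V₁ * width φ A V₁ :=
      Nat.eq_of_mul_eq_mul_right (Nat.card_pos : 0 < Nat.card I)
        ((card_section h1.ge).trans (c.card_sub h1))
    rw [hsq] at hnoff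
    exact Nat.lt_of_mul_lt_mul_right ((Nat.mul_le_mul_left _ hfix).trans_lt hnoff)
  -- Frattini: `A ∩ K` lies in `O₂(H)`
  have hcore' : A ⊓ ψ.ker ≤ Cfsg.pCore 2 H := by
    obtain ⟨R₁, ⟨hR₁L, hR₁2, hAR₁⟩, hmax⟩ := Set.Finite.exists_maximal
      (s := {T : Subgroup H | T ≤ A ⊔ ψ.ker ∧ IsPGroup 2 T ∧ A ≤ T}) (Set.toFinite _)
      ⟨A, le_sup_left, hA2, le_rfl⟩
    have hsyl : H83.SylTwo R₁ (A ⊔ ψ.ker) :=
      ⟨hR₁L, hR₁2, fun T hT hT2 hle => le_antisymm (hmax ⟨hT, hT2, hAR₁.trans hle⟩ hle) hle⟩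
    have hnorm : A ⊔ ψ.ker ≤ Subgroup.normalizer (ψ.ker : Set H) := by
      rw [Subgroup.normalizer_eq_top_iff.2 inferInstance]; exact le_top
    have hRK := hsyl.inf_normal le_sup_right hnorm
    obtain ⟨x, hx, hxle⟩ := hRK.conj_into
      (show H83.conjSub g (R₁ ⊓ ψ.ker) ≤ ψ.ker from
        H83.conjSub_le (K := ψ.ker) (mem_normalizer_of_le
          fun y hy => (inferInstance : ψ.ker.Normal).conj_mem y hy g) inf_le_right)
      (H83.isPGroup_conjSub hRK.2.1)
    rw [H83.conjSub_conjSub] at hxle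
    have hmnorm : x * g ∈ Subgroup.normalizer ((R₁ ⊓ ψ.ker : Subgroup H) : Set H) :=
      Subgroup.mem_normalizer_iff_map_conj_eq.2
        (Subgroup.eq_of_le_of_card_ge hxle (H83.card_conjSub _ _).ge)
    have hgen : A ⊔ cj (x * g) A = ⊤ := by
      by_contra hne'
      refine c.not_le_M ?_
      have h2 : cj x (cj g A) ≤ M := by rw [cj_cj]; exact le_sup_right.trans (c.uniq _ le_sup_left hne')
      have h3 := cj_mono x⁻¹ h2
      rwa [cj_cj, inv_mul_cancel, cj_one, c.cj_M (M.inv_mem (hKM hx))] at h3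
    have hAn : A ≤ Subgroup.normalizer ((R₁ ⊓ ψ.ker : Subgroup H) : Set H) := fun a ha =>
      mem_normalizer_of_le (fun y hy => ⟨R₁.mul_mem (R₁.mul_mem (hAR₁ ha) hy.1) (R₁.inv_mem (hAR₁ ha)),
        (inferInstance : ψ.ker.Normal).conj_mem y hy.2 a⟩)
    have hAn' : cj (x * g) A ≤ Subgroup.normalizer ((R₁ ⊓ ψ.ker : Subgroup H) : Set H) := by
      rintro _ ⟨a, ha, rfl⟩
      exact mul_mem (mul_mem hmnorm (hAn ha)) (inv_mem hmnorm)
    have hN : (R₁ ⊓ ψ.ker).Normal :=
      Subgroup.normalizer_eq_top_iff.1 (top_le_iff.1 (hgen ▸ sup_le hAn hAn'))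
    exact fun a ha => H19.le_pCore hN hRK.2.1 ⟨hAR₁ ha.1, ha.2⟩
  have hk : k = Nat.card A₁ * Nat.card (A ⊓ ψ.ker : Subgroup H) := by
    rw [← c.card, ← H69.SFour.card_map_mul_card_inf_ker ψ.rangeRestrict A,
      MonoidHom.ker_rangeRestrict]
  rw [hk, mul_comm]
  exact Nat.lt_of_le_of_lt (Nat.mul_le_mul_right _ (Subgroup.card_le_of_le (le_inf inf_le_left hcore')))
    ((Nat.mul_lt_mul_left Nat.card_pos).2 hA₁lt)

end Ctx

end Cfsg.Agent.H96.Offender
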