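import Cfsg.Agent.H61.Basic
import Cfsg.Agent.H83.GoodLocal
import Mathlib

/-!
A conjugation-invariant family of 2-subgroups, and a subgroup `Y` containing the normalizer of the
join of the members of a Sylow 2-subgroup: if `Y` is proper then some member `A ≤ Y` and some
conjugate `A^g` outside `Y` generate a group in which every proper subgroup over `A` lies in `Y`.
-/

set_option autoImplicit false
set_option linter.style.haveILetI false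
set_option maxHeartbeats 400000

namespace Cfsg.Agent.H96.Offender

open Cfsg.Agent.H61 (cj cj_cj cj_one cj_mono card_cj mem_cj conj_mem_cj cj_eq_self cj_sup
  mem_normalizer_of_cj cj_eq_of_le cj_inf)
open Cfsg.Agent.H23 (IsSylowIn exists_isSylowIn_ge)

variable {H : Type*} [Group H]

/-- The join of the members below a subgroup. -/
def msup (𝒳 : Set (Subgroup H)) (X : Subgroup H) : Subgroup H := sSup {A | A ∈ 𝒳 ∧ A ≤ X}

variable {𝒳 : Set (Subgroup H)}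

theorem msup_le (X : Subgroup H) : msup 𝒳 X ≤ X := sSup_le fun _ h => h.2

theorem le_msup {A X : Subgroup H} (hA : A ∈ 𝒳) (h : A ≤ X) : A ≤ msup 𝒳 X := le_sSup ⟨hA, h⟩

theorem msup_mono {X X' : Subgroup H} (h : X ≤ X') : msup 𝒳 X ≤ msup 𝒳 X' :=
  sSup_le fun _ hA => le_msup hA.1 (hA.2.trans h)

theorem msup_idem (X : Subgroup H) : msup 𝒳 (msup 𝒳 X) = msup 𝒳 X :=
  le_antisymm (msup_le _) (sSup_le fun _ hA => le_msup hA.1 (le_msup hA.1 hA.2))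

theorem msup_sup {E A : Subgroup H} (hE : msup 𝒳 E = E) (hA : A ∈ 𝒳) :
    msup 𝒳 (E ⊔ A) = E ⊔ A :=
  le_antisymm (msup_le _) (sup_le (hE.ge.trans (msup_mono le_sup_left)) (le_msup hA le_sup_right))

theorem msup_cj (hconj : ∀ A ∈ 𝒳, ∀ x : H, cj x A ∈ 𝒳) (x : H) (X : Subgroup H) :
    cj x (msup 𝒳 X) = msup 𝒳 (cj x X) := by
  have key : ∀ (y : H) (Q : Subgroup H), cj y (msup 𝒳 Q) ≤ msup 𝒳 (cj y Q) := fun y Q => by
    rw [cj, Subgroup.map_le_iff_le_comap]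
    exact sSup_le fun A hA =>
      Subgroup.map_le_iff_le_comap.1 (le_msup (hconj A hA.1 y) (cj_mono y hA.2))
  refine le_antisymm (key x X) ?_
  have h := cj_mono x (key x⁻¹ (cj x X))
  rwa [cj_cj, cj_cj, mul_inv_cancel, inv_mul_cancel, cj_one, cj_one] at h

theorem normalizer_le_msup (hconj : ∀ A ∈ 𝒳, ∀ x : H, cj x A ∈ 𝒳) (X : Subgroup H) :
    Subgroup.normalizer (X : Set H) ≤ Subgroup.normalizer (msup 𝒳 X : Set H) := fun n hn =>
  mem_normalizer_of_cj (by rw [msup_cj hconj, cj_eq_self hn])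

variable [Finite H]

/-- A 2-group with more members than `E` has more members in the normalizer of `E`. -/
theorem msup_grow (hconj : ∀ A ∈ 𝒳, ∀ x : H, cj x A ∈ 𝒳) {R E : Subgroup H} (hR : IsPGroup 2 R)
    (h : msup 𝒳 (R ⊓ Subgroup.normalizer (E : Set H)) = E) : msup 𝒳 R = E := by
  haveI : Fact (Nat.Prime 2) := ⟨Nat.prime_two⟩
  set R₀ := R ⊓ Subgroup.normalizer (E : Set H) with hR₀
  rcases (inf_le_left : R₀ ≤ R).eq_or_lt with e | hlt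
  · rwa [← e]
  · exfalso
    have hle : R ⊓ Subgroup.normalizer (R₀ : Set H) ≤ R₀ :=
      le_inf inf_le_left (inf_le_right.trans (by
        conv_rhs => rw [← h]
        exact normalizer_le_msup hconj R₀))
    exact (H61.card_lt_inf_normalizer hR hlt).not_ge (Subgroup.card_le_of_le hle)

theorem exists_config (hconj : ∀ A ∈ 𝒳, ∀ x : H, cj x A ∈ 𝒳) (h2 : ∀ A ∈ 𝒳, IsPGroup 2 A)
    (S : Sylow 2 H) (Y : Subgroup H)
    (hY : Subgroup.normalizer (msup 𝒳 (S : Subgroup H) : Set H) ≤ Y) (hne : Y ≠ ⊤) :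
    ∃ A ∈ 𝒳, ∃ g : H, A ≤ Y ∧ ¬ cj g A ≤ Y ∧ g ∈ A ⊔ cj g A ∧
      ∀ Z, A ≤ Z → Z ≤ A ⊔ cj g A → Z ≠ A ⊔ cj g A → Z ≤ Y := by
  classical
  haveI : Fact (Nat.Prime 2) := ⟨Nat.prime_two⟩
  set D := msup 𝒳 (S : Subgroup H) with hD
  have hND : Subgroup.normalizer ((S : Subgroup H) : Set H) ≤ Y :=
    (normalizer_le_msup hconj _).trans hY
  have hSY : (S : Subgroup H) ≤ Y := Subgroup.le_normalizer.trans hND
  have hSylY : ∀ x : H, IsSylowIn 2 (cj x (S : Subgroup H)) (cj x Y) := fun x =>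
    H61.sylowIn_cj (H61.sylowIn_of_le S hSY) x
  obtain ⟨x₀, hx₀⟩ : ∃ x, x ∉ Y := by
    by_contra h
    push Not at h
    exact hne (top_unique fun x _ => h x)
  -- a largest group of members in two conjugates of `Y`
  obtain ⟨E, ⟨hEY, hE2, hEm, x, hx, hEx⟩, hmax⟩ := Set.exists_max_image
    {E : Subgroup H | E ≤ Y ∧ IsPGroup 2 E ∧ msup 𝒳 E = E ∧ ∃ x, x ∉ Y ∧ E ≤ cj x Y}
    (fun E => Nat.card E) (Set.toFinite _)
    ⟨⊥, bot_le, IsPGroup.of_bot, le_antisymm (msup_le _) bot_le, x₀, hx₀, bot_le⟩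
  have huniq : ∀ (F : Subgroup H) (a : H), IsPGroup 2 F → msup 𝒳 F = F →
      Nat.card E < Nat.card F → F ≤ Y → F ≤ cj a Y → a ∈ Y := by
    intro F a hF hFm hlt hFY hFa
    by_contra ha
    exact absurd (hmax F ⟨hFY, hF, hFm, a, ha, hFa⟩) (not_le_of_gt hlt)
  obtain ⟨S₁, hS₁, hES₁⟩ := exists_isSylowIn_ge (p := 2) hEY hE2
  obtain ⟨S₂, hS₂, hES₂⟩ := exists_isSylowIn_ge (p := 2) hEx hE2
  obtain ⟨m₁, hm₁, hS₁e⟩ : ∃ m ∈ Y, S₁ = cj m (S : Subgroup H) := by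
    obtain ⟨m, hm, h⟩ := H61.exists_cj_le (H61.sylowIn_of_le S hSY) hS₁.1 hS₁.2.1
    obtain ⟨m', hm', h'⟩ := H61.exists_cj_le hS₁ hSY S.2
    refine ⟨m⁻¹, Y.inv_mem hm, ?_⟩
    have e : cj m S₁ = (S : Subgroup H) := Subgroup.eq_of_le_of_card_ge h (by
      rw [card_cj]
      exact (card_cj m' (S : Subgroup H)).ge.trans (Subgroup.card_le_of_le h'))
    rw [← e, cj_cj, inv_mul_cancel, cj_one]
  obtain ⟨m₂, hm₂, hS₂e⟩ : ∃ m ∈ Y, S₂ = cj (x * m) (S : Subgroup H) := by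
    obtain ⟨m, hm, h⟩ := H61.exists_cj_le (hSylY x) hS₂.1 hS₂.2.1
    obtain ⟨m', hm', h'⟩ := H61.exists_cj_le hS₂ (hSylY x).1 (hSylY x).2.1
    have e : cj m S₂ = cj x (S : Subgroup H) := Subgroup.eq_of_le_of_card_ge h (by
      have h4 := Subgroup.card_le_of_le h'
      simp only [card_cj] at h4 ⊢
      exact h4)
    refine ⟨x⁻¹ * m⁻¹ * x, mem_cj.1 (Subgroup.inv_mem _ hm), ?_⟩
    rw [show x * (x⁻¹ * m⁻¹ * x) = m⁻¹ * x by group, ← cj_cj, ← e, cj_cj, inv_mul_cancel, cj_one]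
  have hcard₁ : Nat.card (msup 𝒳 S₁) = Nat.card D := by rw [hS₁e, ← msup_cj hconj, card_cj]
  have hcard₂ : Nat.card (msup 𝒳 S₂) = Nat.card D := by rw [hS₂e, ← msup_cj hconj, card_cj]
  have hne₁ : msup 𝒳 S₁ ≠ E := by
    intro e₁
    have e₂ : msup 𝒳 S₂ = E :=
      (Subgroup.eq_of_le_of_card_ge (hEm.ge.trans (msup_mono hES₂)) (by
        rw [hcard₂, ← hcard₁, e₁])).symm
    refine hx ?_
    have h1 : cj ((x * m₂)⁻¹ * m₁) D = D := by
      rw [← cj_cj, hD, msup_cj hconj m₁, ← hS₁e, e₁, ← e₂, hS₂e, ← msup_cj hconj, cj_cj,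
        inv_mul_cancel, cj_one]
    have h2 := hY (mem_normalizer_of_cj h1)
    have h3 := Y.mul_mem (Y.mul_mem hm₁ (Y.inv_mem h2)) (Y.inv_mem hm₂)
    simpa [mul_assoc] using h3
  have hne₂ : msup 𝒳 S₂ ≠ E := fun e₂ => hne₁
    (Subgroup.eq_of_le_of_card_ge (hEm.ge.trans (msup_mono hES₁)) (by
      rw [hcard₁, ← hcard₂, e₂])).symm
  set N := Subgroup.normalizer (E : Set H) with hN
  have grow : ∀ R : Subgroup H, IsPGroup 2 R → E ≤ R → msup 𝒳 R ≠ E →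
      ∃ B ∈ 𝒳, B ≤ R ⊓ N ∧ ¬ B ≤ E := by
    intro R hR hER hne'
    by_contra h
    push Not at h
    exact hne' (msup_grow hconj hR (le_antisymm (sSup_le fun B hB => h B hB.1 hB.2)
      (hEm.ge.trans (msup_mono (le_inf hER Subgroup.le_normalizer)))))
  obtain ⟨B₁, hB₁, hB₁le, hB₁E⟩ := grow S₁ hS₁.2.1 hES₁ hne₁
  obtain ⟨B₂, hB₂, hB₂le, hB₂E⟩ := grow S₂ hS₂.2.1 hES₂ hne₂
  -- a Sylow subgroup of the normalizer lies in `Y`
  obtain ⟨R, hR, hle⟩ := exists_isSylowIn_ge (p := 2)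
    (sup_le Subgroup.le_normalizer (hB₁le.trans inf_le_right) : E ⊔ B₁ ≤ N)
    (hS₁.2.1.to_le (sup_le hES₁ (hB₁le.trans inf_le_left)))
  have hbig : ∀ B : Subgroup H, ¬ B ≤ E → Nat.card E < Nat.card (E ⊔ B : Subgroup H) := fun B hB =>
    H61.card_lt_of_lt (lt_of_le_of_ne le_sup_left fun e => hB (e.symm ▸ le_sup_right))
  have hRY : R ≤ Y := by
    obtain ⟨p, -, hp⟩ := H61.exists_cj_le (H61.sylowIn_of_le S le_top) le_top hR.2.1
    have h1 : R ≤ cj p⁻¹ Y := by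
      have := cj_mono p⁻¹ (hp.trans hSY)
      rwa [cj_cj, inv_mul_cancel, cj_one] at this
    have hp' : p⁻¹ ∈ Y := huniq (E ⊔ B₁) p⁻¹ (hR.2.1.to_le hle) (msup_sup hEm hB₁) (hbig B₁ hB₁E)
      (sup_le hEY ((hB₁le.trans inf_le_left).trans hS₁.1)) (hle.trans h1)
    rwa [cj_eq_self (Subgroup.le_normalizer hp')] at h1
  obtain ⟨n, hn, hnR⟩ := H61.exists_cj_le hR (hB₂le.trans inf_le_right) (h2 B₂ hB₂)
  have hEA : ∀ A ∈ 𝒳, A ≤ N → IsPGroup 2 (E ⊔ A : Subgroup H) := fun A hA hAN =>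
    hE2.to_sup_of_normal_left' (h2 A hA) hAN
  -- the pairs to be minimised
  set PR : Set (Subgroup H × H) := {q | q.1 ∈ 𝒳 ∧ q.1 ≤ N ∧ q.1 ≤ Y ∧ ¬ q.1 ≤ E ∧ q.2 ∈ N ∧
    ¬ cj q.2 q.1 ≤ Y} with hPR
  have hnePR : (cj n B₂, n⁻¹) ∈ PR := by
    refine ⟨hconj _ hB₂ n, hnR.trans hR.1, hnR.trans hRY, fun h => hB₂E ?_, inv_mem hn, fun h => hx ?_⟩
    · have h1 := cj_mono n⁻¹ h
      rwa [cj_cj, inv_mul_cancel, cj_one, cj_eq_self (inv_mem hn)] at h1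
    · rw [cj_cj, inv_mul_cancel, cj_one] at h
      exact huniq (E ⊔ B₂) x (hEA B₂ hB₂ (hB₂le.trans inf_le_right)) (msup_sup hEm hB₂)
        (hbig B₂ hB₂E) (sup_le hEY h) (sup_le hEx ((hB₂le.trans inf_le_left).trans hS₂.1))
  obtain ⟨⟨A, h⟩, ⟨hA, hAN, hAY, hAE, hh, hhY⟩, hmin⟩ := Set.exists_min_image PR
    (fun q => Nat.card (q.1 ⊔ cj q.2 q.1 : Subgroup H)) (Set.toFinite _) ⟨_, hnePR⟩
  dsimp only at hA hAN hAY hAE hh hhY hmin
  set G₀ := A ⊔ cj h A with hG₀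
  have hcjN : cj h A ≤ N := (cj_mono h hAN).trans (cj_eq_self (Subgroup.le_normalizer hh)).le
  have hG₀N : G₀ ≤ N := sup_le hAN hcjN
  have houtside : ∀ y ∈ N, y ∉ Y → ¬ cj y A ≤ Y := by
    intro y hy hyY hle'
    refine hyY (huniq (cj y (E ⊔ A)) y ((hEA A hA hAN).map _) ?_ ?_ ?_ (cj_mono y (sup_le hEY hAY)))
    · rw [← msup_cj hconj, msup_sup hEm hA]
    · rw [card_cj]; exact hbig A hAE
    · rw [cj_sup, cj_eq_self hy]; exact sup_le hEY hle'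
  obtain ⟨g, hgG, hgY⟩ : ∃ g ∈ G₀, g ∉ Y := by
    by_contra hall
    push Not at hall
    exact hhY ((le_sup_right : cj h A ≤ G₀).trans hall)
  have hcjG : ∀ y ∈ G₀, cj y A ≤ G₀ := fun y hy =>
    (cj_mono y le_sup_left).trans (cj_eq_self (Subgroup.le_normalizer hy)).le
  have hG : A ⊔ cj g A = G₀ :=
    Subgroup.eq_of_le_of_card_ge (sup_le le_sup_left (hcjG g hgG))
      (hmin (A, g) ⟨hA, hAN, hAY, hAE, hG₀N hgG, houtside g (hG₀N hgG) hgY⟩)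
  refine ⟨A, hA, g, hAY, houtside g (hG₀N hgG) hgY, hG.symm ▸ hgG, fun Z hAZ hZ hZne => ?_⟩
  by_contra hZY
  obtain ⟨z, hz, hzY⟩ := SetLike.not_le_iff_exists.1 hZY
  have hzN : z ∈ N := hG₀N (hG ▸ hZ hz)
  have hle' : A ⊔ cj z A ≤ Z :=
    sup_le hAZ ((cj_mono z hAZ).trans (cj_eq_self (Subgroup.le_normalizer hz)).le)
  refine hZne (Subgroup.eq_of_le_of_card_ge hZ ?_)
  rw [hG]
  exact (hmin (A, z) ⟨hA, hAN, hAY, hAE, hzN, houtside z hzN hzY⟩).trans (Subgroup.card_le_of_le hle')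

end Cfsg.Agent.H96.Offender
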