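import Cfsg.Agent.H96.Offender.Pairing
import Mathlib

/-!
For a group acting on a finite abelian group `U`, a least nontrivial invariant group of endomorphisms
generated inside the group spanned by the action gives an invariant subgroup of `U` that is a sum of
irreducible subgroups of one order.
-/

set_option autoImplicit false
set_option linter.style.haveILetI false
set_option maxHeartbeats 400000

namespace Cfsg.Agent.H96.Offender

variable {H U : Type*} [Group H] [CommGroup U]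

/-- The group of endomorphisms spanned by the action. -/
def actSpan (π : H →* MulAut U) : Subgroup (U →* U) :=
  Subgroup.closure (Set.range fun h => (π h).toMonoidHom)

theorem comp_mem_actSpan (π : H →* MulAut U) (h : H) {f : U →* U} (hf : f ∈ actSpan π) :
    (π h).toMonoidHom.comp f ∈ actSpan π := by
  induction hf using Subgroup.closure_induction with
  | mem f hf =>
    obtain ⟨h', rfl⟩ := hf
    refine Subgroup.subset_closure ⟨h * h', MonoidHom.ext fun u => ?_⟩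
    show π (h * h') u = π h (π h' u)
    rw [map_mul, MulAut.mul_apply]
  | one => rw [MonoidHom.comp_one]; exact one_mem _
  | mul a b _ _ ha hb => rw [MonoidHom.comp_mul]; exact mul_mem ha hb
  | inv a _ ha => rw [MonoidHom.comp_inv]; exact inv_mem ha

/-- An invariant group of homomorphisms is invariant under the spanned endomorphisms. -/
theorem comp_mem_of_actSpan {Z : Type*} [CommGroup Z] (π : H →* MulAut U)
    (R : Subgroup (U →* Z)) (hR : ∀ χ ∈ R, ∀ h : H, χ.comp (π h).toMonoidHom ∈ R)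
    {χ : U →* Z} (hχ : χ ∈ R) {f : U →* U} (hf : f ∈ actSpan π) : χ.comp f ∈ R := by
  induction hf using Subgroup.closure_induction with
  | mem f hf =>
    obtain ⟨h, rfl⟩ := hf
    exact hR χ hχ h
  | one => rw [MonoidHom.comp_one]; exact one_mem _
  | mul a b _ _ ha hb => rw [MonoidHom.comp_mul]; exact mul_mem ha hb
  | inv a _ ha => rw [MonoidHom.comp_inv]; exact inv_mem ha

theorem exists_copies [Finite U] [Nontrivial U] (π : H →* MulAut U) :
    ∃ (ρ : Subgroup (U →* U)) (N : Subgroup U) (𝒯 : Set (Subgroup U)) (q : ℕ),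
      ρ ≤ actSpan π ∧ (∀ f ∈ ρ, f.range ≤ N) ∧ N ≤ (⨆ f ∈ ρ, f.range) ∧ N ≠ ⊥ ∧
      (∀ h : H, ∀ u ∈ N, π h u ∈ N) ∧ 1 < q ∧
      (∀ T ∈ 𝒯, T ≤ N ∧ Nat.card T = q ∧ (∀ h : H, ∀ u ∈ T, π h u ∈ T) ∧
        ∀ X ≤ T, (∀ h : H, ∀ u ∈ X, π h u ∈ X) → X = ⊥ ∨ X = T) ∧
      N ≤ sSup 𝒯 := by
  haveI : Finite (U →* U) := finite_hom
  obtain ⟨ρ, ⟨hρ1, hρ2, hρ3⟩, hmin⟩ := Set.Finite.exists_minimal
    (s := {X : Subgroup (U →* U) | X ≤ actSpan π ∧ X ≠ ⊥ ∧
      ∀ h : H, ∀ f ∈ X, (π h).toMonoidHom.comp f ∈ X}) (Set.toFinite _)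
    ⟨actSpan π, le_rfl, fun e => by
      have h1 : (π 1).toMonoidHom ∈ actSpan π := Subgroup.subset_closure ⟨1, rfl⟩
      rw [e, Subgroup.mem_bot] at h1
      obtain ⟨u, hu⟩ := exists_ne (1 : U)
      have := DFunLike.congr_fun h1 u
      simp at this
      exact hu this, fun h f hf => comp_mem_actSpan π h hf⟩
  have hsmall : ∀ X ≤ ρ, (∀ h : H, ∀ f ∈ X, (π h).toMonoidHom.comp f ∈ X) → X = ⊥ ∨ X = ρ :=
    fun X hX hinv => by
      by_cases e : X = ⊥
      · exact Or.inl e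
      · exact Or.inr (le_antisymm hX (hmin ⟨hX.trans hρ1, e, hinv⟩ hX))
  let ev : U → (U →* U) →* U := fun u => MonoidHom.eval u
  have hev : ∀ u f, ev u f = f u := fun _ _ => rfl
  set 𝒯 : Set (Subgroup U) := {T | T ≠ ⊥ ∧ ∃ u, T = ρ.map (ev u)} with h𝒯
  set N := ⨆ f ∈ ρ, f.range with hN
  have hle : ∀ f ∈ ρ, f.range ≤ N := fun f hf => le_iSup₂_of_le f hf le_rfl
  refine ⟨ρ, N, 𝒯, Nat.card ρ, hρ1, hle, le_rfl, ?_, ?_,
    (Subgroup.one_lt_card_iff_ne_bot ρ).2 hρ2, ?_, ?_⟩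
  · intro e
    refine hρ2 ((Subgroup.eq_bot_iff_forall ρ).2 fun f hf => MonoidHom.ext fun u => ?_)
    exact Subgroup.mem_bot.1 (e ▸ hle f hf ⟨u, rfl⟩)
  · intro h
    have hN' : N ≤ N.comap (π h).toMonoidHom := iSup₂_le fun f hf => by
      rintro _ ⟨u, rfl⟩
      exact hle _ (hρ3 h f hf) ⟨u, rfl⟩
    exact fun u hu => hN' hu
  · rintro T ⟨hT, u, rfl⟩
    refine ⟨?_, ?_, ?_, fun X hX hinv => ?_⟩
    · rintro _ ⟨f, hf, rfl⟩
      exact hle f hf ⟨u, rfl⟩
    · have hk : ρ ⊓ (ev u).ker = ⊥ := by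
        refine (hsmall _ inf_le_left fun h f hf => ⟨hρ3 h f hf.1, ?_⟩).resolve_right fun e => hT ?_
        · show π h (f u) = 1
          rw [show f u = 1 from hf.2, map_one]
        · refine (Subgroup.map_eq_bot_iff ρ).2 ?_
          rw [← e]; exact inf_le_right
      have h := H69.SFour.card_map_mul_card_inf_ker (ev u) ρ
      rwa [hk, Subgroup.card_bot, mul_one] at h
    · rintro h _ ⟨f, hf, rfl⟩
      exact ⟨_, hρ3 h f hf, rfl⟩
    · rcases hsmall (ρ ⊓ X.comap (ev u)) inf_le_left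
        (fun h f hf => ⟨hρ3 h f hf.1, hinv h _ hf.2⟩) with e | e
      · refine Or.inl ((Subgroup.eq_bot_iff_forall X).2 fun x hx => ?_)
        obtain ⟨f, hf, rfl⟩ := hX hx
        rw [(Subgroup.eq_bot_iff_forall _).1 e f ⟨hf, hx⟩, map_one]
      · refine Or.inr (le_antisymm hX ?_)
        rintro _ ⟨f, hf, rfl⟩
        exact (e.symm.le hf).2
  · refine iSup₂_le fun f hf => ?_
    rintro _ ⟨u, rfl⟩
    by_cases e : ρ.map (ev u) = ⊥
    · have : f u ∈ ρ.map (ev u) := ⟨f, hf, rfl⟩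
      rw [e, Subgroup.mem_bot] at this
      rw [this]; exact one_mem _
    · have hmem : ev u f ∈ ρ.map (ev u) := Subgroup.mem_map_of_mem _ hf
      exact le_sSup (show ρ.map (ev u) ∈ 𝒯 from ⟨e, u, rfl⟩) hmem

end Cfsg.Agent.H96.Offender
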