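import Cfsg.Agent.H96.Offender.Basic
import Cfsg.Agent.H69.SFour.Pair
import Mathlib

/-!
The base case of a least counterexample: if the fixed points of `A` and `A^g` complement each other
in the module, then no element of `A` fixes a nontrivial fixed point of `A^g`, so some element of
order 3 is inverted by an involution.
-/

set_option autoImplicit false
set_option linter.style.haveILetI false

namespace Cfsg.Agent.H96.Offender

open Cfsg.Agent.H83 (fixedSub delta delta_apply mem_fixedSub)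
open Cfsg.Agent.H61 (cj)
open Cfsg.Agent.H50.QuadraticOffender (stabMod mem_stabMod delta_mul card_sup_mul_card_inf)

variable {H V : Type*} [Group H] [CommGroup V]

/-- The stabilizer of a point of the module. -/
def stabPoint (φ : H →* MulAut V) (v : V) : Subgroup H := stabMod φ ⊥ bot_le v

theorem mem_stabPoint {φ : H →* MulAut V} {v : V} {h : H} : h ∈ stabPoint φ v ↔ φ h v = v := by
  rw [stabPoint, mem_stabMod, Subgroup.mem_bot, delta_apply, div_eq_one]

namespace Ctx

variable {φ : H →* MulAut V} {A : Subgroup H} {g : H} {k : ℕ} {W : Subgroup V} {M : Subgroup H}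

/-- A proper subgroup over `A^g` lies in the conjugate of `M`. -/
theorem uniq_conj (c : Ctx φ A g k W M) (Y : Subgroup H) (hY : cj g A ≤ Y) (hne : Y ≠ ⊤) :
    Y ≤ cj g M := by
  have h1 : A ≤ cj g⁻¹ Y := by
    have := H61.cj_mono g⁻¹ hY
    rwa [H61.cj_cj, inv_mul_cancel, H61.cj_one] at this
  have h2 : cj g⁻¹ Y ≠ ⊤ := fun e => hne (top_unique fun h _ => by
    have hh : g⁻¹ * h * g ∈ cj g⁻¹ Y := e ▸ Subgroup.mem_top _
    rw [H61.mem_cj] at hh
    simpa [mul_assoc] using hh)
  have := H61.cj_mono g (c.uniq _ h1 h2)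
  rwa [H61.cj_cj, mul_inv_cancel, H61.cj_one] at this

/-- `A` is not contained in the conjugate of `M`. -/
theorem not_le_conj (c : Ctx φ A g k W M) : ¬ A ≤ cj g M := by
  intro h
  have htop : (⊤ : Subgroup H) ≤ cj g M := c.gen ▸ sup_le h (H61.cj_mono g c.le_M)
  refine c.not_le_M fun x _ => ?_
  have hh : g * x * g⁻¹ ∈ cj g M := htop (Subgroup.mem_top _)
  rw [H61.mem_cj] at hh
  simpa [mul_assoc] using hh

/-- `A^g` acts quadratically. -/
theorem quad_conj (c : Ctx φ A g k W M) {t : H} (ht : t ∈ cj g A) (v : V) :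
    delta φ t v ∈ fixedSub φ (cj g A : Set H) := by
  rw [H69.SFour.fixedSub_cj]
  obtain ⟨a, ha, rfl⟩ := Subgroup.mem_map.1 ht
  refine ⟨delta φ a (φ g⁻¹ v), c.quad a ha _, ?_⟩
  show φ g (delta φ a (φ g⁻¹ v)) = delta φ (g * a * g⁻¹) v
  rw [delta_apply, delta_apply, map_div, map_mul, map_mul, MulAut.mul_apply, MulAut.mul_apply,
    map_inv, MulAut.apply_inv_self]

/-- The roles of `A` and `A^g` may be exchanged. -/
theorem swap (c : Ctx φ A g k W M) :
    Ctx φ (cj g A) g⁻¹ k (W.map (φ g).toMonoidHom) (cj g M) where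
  inj := c.inj
  sq := c.sq
  s3 := c.s3
  invol := fun t ht => by
    obtain ⟨a, ha, rfl⟩ := Subgroup.mem_map.1 ht
    rw [← map_mul, c.invol a ha, map_one]
  card := by rw [H61.card_cj, c.card]
  quad := fun t ht v => c.quad_conj ht v
  off := by rw [H69.SFour.card_fixedSub_cj]; exact c.off
  min := c.min
  gen := by rw [H61.cj_cj, inv_mul_cancel, H61.cj_one, sup_comm]; exact c.gen
  le_M := H61.cj_mono g c.le_M
  not_le_M := by rw [H61.cj_cj, inv_mul_cancel, H61.cj_one]; exact c.not_le_conj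
  uniq := c.uniq_conj
  inv_W := fun m hm w hw => by
    obtain ⟨m₀, hm₀, rfl⟩ := Subgroup.mem_map.1 hm
    obtain ⟨w₀, hw₀, rfl⟩ := hw
    refine ⟨φ m₀ w₀, c.inv_W m₀ hm₀ w₀ hw₀, ?_⟩
    show φ g (φ m₀ w₀) = φ (g * m₀ * g⁻¹) (φ g w₀)
    rw [← MulAut.mul_apply, ← map_mul, ← MulAut.mul_apply, ← map_mul, inv_mul_cancel_right]
  fix_W := by rw [H69.SFour.fixedSub_cj]; exact Subgroup.map_mono c.fix_W
  W_ne := fun h => c.W_ne ((Subgroup.map_eq_bot_iff_of_injective W (φ g).injective).1 h)

/-- A point fixed by `A` and by an element of `A^g` outside `M` is fixed by both. -/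
theorem eq_one_of_fixed (c : Ctx φ A g k W M)
    (hinf : fixedSub φ (A : Set H) ⊓ fixedSub φ (cj g A : Set H) = ⊥) {y : H} (hyM : y ∉ M)
    {v : V} (hv : v ∈ fixedSub φ (A : Set H)) (hy : φ y v = v) : v = 1 := by
  have hA : A ≤ stabPoint φ v := fun a ha => mem_stabPoint.2 (hv a ha)
  by_cases h : stabPoint φ v = ⊤
  · have hv' : v ∈ fixedSub φ (A : Set H) ⊓ fixedSub φ (cj g A : Set H) :=
      ⟨hv, fun t _ => mem_stabPoint.1 (h ▸ Subgroup.mem_top t)⟩
    rw [hinf] at hv'
    exact Subgroup.mem_bot.1 hv'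
  · exact absurd (c.uniq _ hA h (mem_stabPoint.2 hy)) hyM

variable [Finite V]

/-- An element of `A^g` outside `M` maps the fixed points of `A` onto those of `A^g`. -/
theorem exists_delta_eq (c : Ctx φ A g k W M)
    (hinf : fixedSub φ (A : Set H) ⊓ fixedSub φ (cj g A : Set H) = ⊥) {y : H} (hy : y ∈ cj g A)
    (hyM : y ∉ M) {w : V} (hw : w ∈ fixedSub φ (cj g A : Set H)) :
    ∃ v ∈ fixedSub φ (A : Set H), delta φ y v = w := by
  have hle : (fixedSub φ (A : Set H)).map (delta φ y) ≤ fixedSub φ (cj g A : Set H) := by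
    rintro _ ⟨v, -, rfl⟩
    exact c.quad_conj hy v
  have hinj : Function.Injective
      ((delta φ y).comp (fixedSub φ (A : Set H)).subtype) := by
    rw [injective_iff_map_eq_one]
    intro v hv
    refine Subtype.ext (c.eq_one_of_fixed hinf hyM v.2 ?_)
    rw [← div_eq_one]
    exact hv
  have hcard : Nat.card ((fixedSub φ (A : Set H)).map (delta φ y)) =
      Nat.card (fixedSub φ (cj g A : Set H)) := by
    have e : ((delta φ y).comp (fixedSub φ (A : Set H)).subtype).range =
        (fixedSub φ (A : Set H)).map (delta φ y) := by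
      rw [MonoidHom.range_comp, Subgroup.range_subtype]
    rw [H69.SFour.card_fixedSub_cj, ← e]
    exact (Nat.card_congr (MonoidHom.ofInjective hinj).toEquiv).symm
  have heq := Subgroup.eq_of_le_of_card_ge hle hcard.ge
  obtain ⟨v, hv, rfl⟩ := heq.symm ▸ hw
  exact ⟨v, hv, rfl⟩

/-- An element of `A` in the conjugate of `M` fixes the images of `W` under `A^g ∖ M`. -/
theorem fixed_delta (c : Ctx φ A g k W M)
    (hinf : fixedSub φ (A : Set H) ⊓ fixedSub φ (cj g A : Set H) = ⊥) {b y : H} (hb : b ∈ A)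
    (hbM : b ∈ cj g M) (hy : y ∈ cj g A) (hyM : y ∉ M) {z : V} (hz : z ∈ W) :
    φ b (delta φ y z) = delta φ y z := by
  set W' := W.map (φ g).toMonoidHom with hW'
  obtain ⟨u, hu, hu1⟩ := W'.bot_or_exists_ne_one.resolve_left c.swap.W_ne
  obtain ⟨w, hwW, hw1, hbw⟩ : ∃ w ∈ W', w ≠ 1 ∧ φ b w = w := by
    by_cases h : φ b u = u
    · exact ⟨u, hu, hu1, h⟩
    · refine ⟨delta φ b u, W'.div_mem (c.swap.inv_W b hbM u hu) hu, ?_, c.quad b hb u b hb⟩
      rw [delta_apply, ne_eq, div_eq_one]
      exact h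
  have hwC : w ∈ fixedSub φ (cj g A : Set H) := c.swap.fix_W hwW
  obtain ⟨v, hv, hyv⟩ := c.exists_delta_eq hinf hy hyM hwC
  have hyv' : φ y v = w * v := by rw [← hyv, delta_apply, div_mul_cancel]
  have hv1 : v ≠ 1 := by
    rintro rfl
    exact hw1 (by rw [← hyv, map_one])
  -- `y b y` fixes `v`
  have hbyb : φ (y * b * y) v = v := by
    rw [map_mul, MulAut.mul_apply, map_mul, MulAut.mul_apply, hyv', map_mul, hbw, hv b hb,
      map_mul, hwC y hy, hyv', ← mul_assoc, c.sq, one_mul]
  have hM : y * b * y ∈ M := by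
    refine c.uniq _ (fun a ha => mem_stabPoint.2 (hv a ha)) (fun h => hv1 ?_)
      (mem_stabPoint.2 hbyb)
    exact c.eq_one_of_fixed hinf hyM hv (mem_stabPoint.1 (h ▸ Subgroup.mem_top y))
  -- so it leaves `W` invariant
  set p := delta φ y z with hp
  set q := delta φ b p with hq
  have hzC : z ∈ fixedSub φ (A : Set H) := c.fix_W hz
  have hqC : q ∈ fixedSub φ (A : Set H) := c.quad b hb p
  have hpz : φ y z = p * z := by rw [hp, delta_apply, div_mul_cancel]
  have hqp : φ b p = q * p := by rw [hq, delta_apply, div_mul_cancel]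
  have hcalc : φ (y * b * y) z = φ y q * z := by
    rw [map_mul, MulAut.mul_apply, map_mul, MulAut.mul_apply, hpz, map_mul, hqp, hzC b hb, map_mul,
      map_mul, (c.quad_conj hy z : p ∈ _) y hy, hpz, mul_assoc, ← mul_assoc p, c.sq, one_mul]
  have hyqC : φ y q ∈ fixedSub φ (A : Set H) := by
    have h := c.fix_W (c.inv_W _ hM z hz)
    rw [hcalc] at h
    simpa using mul_mem h (inv_mem hzC)
  have hδ : delta φ y q ∈ fixedSub φ (A : Set H) ⊓ fixedSub φ (cj g A : Set H) :=
    ⟨Subgroup.div_mem _ hyqC hqC, c.quad_conj hy q⟩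
  rw [hinf, Subgroup.mem_bot, delta_apply, div_eq_one] at hδ
  have hq1 : q = 1 := c.eq_one_of_fixed hinf hyM hqC hδ
  rw [hqp, hq1, one_mul]

variable [Finite H]

/-- If `A^g` meets `M` in no more than `A` meets the conjugate of `M`, the latter meet is trivial. -/
theorem inf_eq_bot_of_card_le (c : Ctx φ A g k W M)
    (hinf : fixedSub φ (A : Set H) ⊓ fixedSub φ (cj g A : Set H) = ⊥)
    (hle : Nat.card (cj g A ⊓ M : Subgroup H) ≤ Nat.card (A ⊓ cj g M : Subgroup H)) :
    A ⊓ cj g M = ⊥ := by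
  by_contra hne
  set B := A ⊓ cj g M with hB
  set C := fixedSub φ (A : Set H) with hC
  set C' := fixedSub φ (cj g A : Set H) with hC'
  obtain ⟨z, hz, hz1⟩ := W.bot_or_exists_ne_one.resolve_left c.W_ne
  obtain ⟨y, hy, hyM⟩ := SetLike.not_le_iff_exists.1 c.not_le_M
  let θ : ↥(cj g A) →* V := MonoidHom.mk' (fun t => delta φ t z) fun s t => by
    show delta φ ((s : H) * t) z = _
    rw [delta_mul, c.quad_conj t.2 z s s.2, mul_comm]
  have hfix : ∀ t ∈ cj g A, ∀ b ∈ B, φ b (delta φ t z) = delta φ t z := by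
    intro t ht b hb
    by_cases htM : t ∈ M
    · have hty : t * y ∉ M := fun h => hyM (by simpa using M.mul_mem (M.inv_mem htM) h)
      have h1 := c.fixed_delta hinf hb.1 hb.2 ((cj g A).mul_mem ht hy) hty hz
      have h2 := c.fixed_delta hinf hb.1 hb.2 hy hyM hz
      rw [delta_mul, c.quad_conj hy z t ht, map_mul, h2] at h1
      exact mul_left_cancel h1
    · exact c.fixed_delta hinf hb.1 hb.2 ht htM hz
  have hsup : C ⊔ θ.range ≤ fixedSub φ (B : Set H) := by
    refine sup_le (fun v hv b hb => hv b hb.1) ?_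
    rintro _ ⟨t, rfl⟩ b hb
    exact hfix t t.2 b hb
  have hdisj : C ⊓ θ.range = ⊥ := by
    refine eq_bot_iff.2 ((inf_le_inf_left C ?_).trans hinf.le)
    rintro _ ⟨t, rfl⟩
    exact c.quad_conj t.2 z
  have hker : Nat.card θ.ker ≤ Nat.card (cj g A ⊓ M : Subgroup H) := by
    refine Nat.card_le_card_of_injective
      (fun t : θ.ker => (⟨(t.1 : H), ⟨t.1.2, ?_⟩⟩ : ↥(cj g A ⊓ M))) ?_
    · by_contra htM
      refine hz1 (c.eq_one_of_fixed hinf htM (c.fix_W hz) ?_)
      rw [← div_eq_one]
      exact t.2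
    · intro a b h
      exact Subtype.ext (Subtype.ext (congrArg Subtype.val h :))
  have hk : Nat.card θ.range * Nat.card θ.ker = k := by
    rw [← Subgroup.index_ker, Subgroup.index_mul_card, H61.card_cj, c.card]
  have hcard : Nat.card C * Nat.card θ.range ≤ Nat.card (fixedSub φ (B : Set H)) := by
    have := card_sup_mul_card_inf C θ.range
    rw [hdisj, Subgroup.card_bot, mul_one] at this
    rw [← this]
    exact Subgroup.card_le_of_le hsup
  have hlt : Nat.card B < k := by
    rw [← c.card]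
    refine lt_of_le_of_ne (Subgroup.card_le_of_le inf_le_left) fun e => c.not_le_conj ?_
    exact inf_eq_left.1 (Subgroup.eq_of_le_of_card_ge inf_le_left e.ge)
  have hmin := c.min B (fun b hb => c.invol b hb.1) hne hlt
  have : Nat.card V ≤ Nat.card B * Nat.card (fixedSub φ (B : Set H)) :=
    calc Nat.card V ≤ k * Nat.card C := c.off
      _ = Nat.card θ.ker * (Nat.card C * Nat.card θ.range) := by rw [← hk]; ring
      _ ≤ Nat.card B * Nat.card (fixedSub φ (B : Set H)) :=
          Nat.mul_le_mul (hker.trans hle) hcard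
  omega

/-- No least counterexample has complementary fixed points. -/
theorem base_false (c : Ctx φ A g k W M)
    (hinf : fixedSub φ (A : Set H) ⊓ fixedSub φ (cj g A : Set H) = ⊥)
    (hsup : fixedSub φ (A : Set H) ⊔ fixedSub φ (cj g A : Set H) = ⊤) : False := by
  have hinf' : fixedSub φ (cj g A : Set H) ⊓ fixedSub φ (cj g⁻¹ (cj g A) : Set H) = ⊥ := by
    rw [H61.cj_cj, inv_mul_cancel, H61.cj_one, inf_comm]
    exact hinf
  have hB : A ⊓ cj g M = ⊥ := by
    rcases le_total (Nat.card (cj g A ⊓ M : Subgroup H)) (Nat.card (A ⊓ cj g M : Subgroup H)) with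
      h | h
    · exact c.inf_eq_bot_of_card_le hinf h
    · have e : cj g⁻¹ (cj g A) = A := by rw [H61.cj_cj, inv_mul_cancel, H61.cj_one]
      have e' : cj g⁻¹ (cj g M) = M := by rw [H61.cj_cj, inv_mul_cancel, H61.cj_one]
      have h' := c.swap.inf_eq_bot_of_card_le hinf' (by rwa [e, e'])
      rw [e'] at h'
      rw [h', Subgroup.card_bot] at h
      exact Subgroup.eq_bot_of_card_le _ h
  have hnt : fixedSub φ (A : Set H) ≠ ⊤ := by
    intro h
    have h' : fixedSub φ (cj g A : Set H) = ⊤ := by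
      rw [H69.SFour.fixedSub_cj, h]
      exact Subgroup.map_top_of_surjective _ (φ g).surjective
    rw [h, h', inf_top_eq] at hinf
    exact c.W_ne (eq_bot_iff.2 (hinf ▸ le_top))
  have hPair : H69.SFour.Pair φ A g :=
    { sq := c.sq
      invol := c.invol
      quad := c.quad
      off := by rw [c.card]; exact c.off
      gen := c.gen
      span := hsup
      nontriv := hnt
      free := fun a ha u hu hfix => by
        have h1 : delta φ a u ∈ fixedSub φ (A : Set H) ⊓ fixedSub φ (cj g A : Set H) :=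
          ⟨fun h _ => hfix h trivial, fun h _ => hfix h trivial⟩
        rw [hinf, Subgroup.mem_bot] at h1
        obtain ⟨v, hv, w, hw, rfl⟩ :=
          Subgroup.mem_sup.1 (hsup.symm ▸ Subgroup.mem_top u :
            u ∈ fixedSub φ (A : Set H) ⊔ fixedSub φ (cj g A : Set H))
        rw [map_mul, show delta φ a v = 1 by rw [delta_apply, hv a ha, div_self'], one_mul] at h1
        by_contra ha1
        have haM : a ∉ cj g M := fun h => ha1 (Subgroup.mem_bot.1 (hB ▸ ⟨ha, h⟩ : a ∈ (⊥ : Subgroup H)))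
        have hw1 : w = 1 := c.swap.eq_one_of_fixed hinf' haM hw (div_eq_one.1 h1)
        exact hu (by rw [hw1, mul_one]; exact hv) }
  obtain ⟨x, a, hx3, hx1, ha2, hinv⟩ := hPair.exists_inverted
  refine c.s3 (H83.involves_s3_of_inverted hx3 hx1 (t := a) ?_)
  rw [inv_eq_of_mul_eq_one_right ha2]
  exact hinv

end Ctx

end Cfsg.Agent.H96.Offender
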