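import Cfsg.Agent.H96.Offender.Bound
import Cfsg.Agent.H96.Offender.Endo
import Mathlib

/-!
In the local situation of a least counterexample either `A^g` centralizes `W` as well, or a subgroup
of `M` acts on `W` as an offender of exponent two.

The normal closure `R` of `A ∩ O₂(H)` moves the subgroup generated by the conjugates of `W` only
inside the fixed points of `H`, so it gives an invariant group of homomorphisms on that section.
-/

set_option autoImplicit false
set_option linter.style.haveILetI false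
set_option maxHeartbeats 400000

namespace Cfsg.Agent.H96.Offender

open Cfsg.Agent.H83 (fixedSub delta delta_apply mem_fixedSub)
open Cfsg.Agent.H61 (cj cj_cj cj_one cj_mono card_cj mem_cj conj_mem_cj cj_normal cj_eq_self)
open Cfsg.Agent.H50.QuadraticOffender (stabMod mem_stabMod delta_mul card_sup_mul_card_inf)
open Cfsg.Agent.H69.SFour (stabSub mem_stabSub)

universe u

section Pair

variable {H V : Type*} [Group H] [CommGroup V]

/-- The fixed points of the whole group. -/
abbrev fixAll (φ : H →* MulAut V) : Subgroup V := fixedSub φ (Set.univ : Set H)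

theorem inv_fixAll (φ : H →* MulAut V) (h : H) (v : V) (hv : v ∈ fixAll φ) :
    φ h v ∈ fixAll φ := by
  rw [hv h trivial]; exact hv

/-- The homomorphism on a section that an element gives when it moves it only into the fixed points. -/
def pairFun (φ : H →* MulAut V) (N : Subgroup V) (r : H) (hr : ∀ v ∈ N, delta φ r v ∈ fixAll φ) :
    N ⧸ (fixAll φ).subgroupOf N →* fixAll φ :=
  QuotientGroup.lift _ (((delta φ r).comp N.subtype).codRestrict (fixAll φ) fun v => hr v v.2)
    fun v hv => MonoidHom.mem_ker.2 <| Subtype.ext (show delta φ r (v : V) = 1 by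
      rw [delta_apply, Subgroup.mem_subgroupOf.1 hv r trivial, div_self'])

/-- The homomorphism from `R` to the homomorphisms on the section. -/
def pairHom (φ : H →* MulAut V) (N : Subgroup V) (R : Subgroup H)
    (hd : ∀ r ∈ R, ∀ v ∈ N, delta φ r v ∈ fixAll φ) :
    R →* (N ⧸ (fixAll φ).subgroupOf N →* fixAll φ) where
  toFun r := pairFun φ N r (hd r r.2)
  map_one' := MonoidHom.ext fun x => QuotientGroup.induction_on x fun v =>
    Subtype.ext (show delta φ 1 (v : V) = 1 by rw [delta_apply, map_one, MulAut.one_apply, div_self'])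
  map_mul' r r' := MonoidHom.ext fun x => QuotientGroup.induction_on x fun v =>
    Subtype.ext (show delta φ (r * r') (v : V) = delta φ r v * delta φ r' v by
      rw [delta_mul, hd r' r'.2 v v.2 r trivial, mul_comm])

theorem pairHom_mk (φ : H →* MulAut V) (N : Subgroup V) (R : Subgroup H)
    (hd : ∀ r ∈ R, ∀ v ∈ N, delta φ r v ∈ fixAll φ) (r : R) (v : N) :
    ((pairHom φ N R hd r (v : N ⧸ (fixAll φ).subgroupOf N) : fixAll φ) : V) =
      delta φ r v := rfl

theorem pairHom_comp (φ : H →* MulAut V) (N : Subgroup V) (R : Subgroup H) [hR : R.Normal]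
    (hN : ∀ h, ∀ v ∈ N, φ h v ∈ N) (hd : ∀ r ∈ R, ∀ v ∈ N, delta φ r v ∈ fixAll φ) (r : R) (h : H) :
    (pairHom φ N R hd r).comp (quotAct φ N (fixAll φ) hN (inv_fixAll φ) h).toMonoidHom =
      pairHom φ N R hd ⟨h⁻¹ * r * h, by simpa using hR.conj_mem r r.2 h⁻¹⟩ :=
  MonoidHom.ext fun x => QuotientGroup.induction_on x fun v => Subtype.ext (by
    show delta φ r (φ h v) = delta φ (h⁻¹ * r * h) v
    have e := delta_conj φ h⁻¹ (r : H) (v : V)
    rw [inv_inv] at e
    rw [e, hd r r.2 _ (hN h v v.2) h⁻¹ trivial])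

end Pair

namespace Ctx

variable {H V : Type u} [Group H] [CommGroup V] [Finite H] [Finite V]
variable {φ : H →* MulAut V} {A M : Subgroup H} {g : H} {k : ℕ} {W : Subgroup V}

omit [Finite V] in
theorem sup_cj_eq_top (c : Ctx φ A g k W M) {x : H} (hx : x ∉ M) : A ⊔ cj x A = ⊤ := by
  by_contra hne
  have h1 : A ≤ cj x M := le_sup_left.trans (c.uniq_cj x le_sup_right hne)
  have h2 : cj x M ≤ M := c.uniq _ h1 fun e => c.M_ne_top (by
    have := congrArg (cj x⁻¹) e
    rwa [cj_cj, inv_mul_cancel, cj_one, cj_top] at this)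
  have h3 : x ∈ Subgroup.normalizer (M : Set H) :=
    H61.mem_normalizer_of_cj (H61.cj_eq_of_le h2)
  refine hx (c.uniq _ (c.le_M.trans Subgroup.le_normalizer) (fun e => c.not_le_M ?_) h3)
  rw [← cj_eq_self (e.symm ▸ Subgroup.mem_top g : g ∈ Subgroup.normalizer (M : Set H))]
  exact cj_mono g c.le_M

theorem not_fixed (c : Ctx φ A g k W M) (n : ℕ) (hbelow : Below.{u} n)
    (hn : Nat.card H + Nat.card V < n) {N : Subgroup V} (hN : IsSub φ A g N)
    (hne : N ≠ fixAll φ) :
    ¬ N ≤ fixedSub φ ((A ⊓ Cfsg.pCore 2 H : Subgroup H) : Set H) := fun hle => by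
  obtain ⟨V₁, h1, h1N, h1ne, hirr⟩ := c.exists_irreducible hN hne
  have h2 := c.bound n hbelow hn h1 h1ne hirr
  exact absurd (c.card_mul_width_le h1 inf_le_left
    (fun e => c.not_le_pCore (inf_eq_left.1 e)) (h1N.trans hle)) (not_le_of_gt h2)

theorem delta_normalClosure (c : Ctx φ A g k W M) {r : H}
    (hr : r ∈ Subgroup.normalClosure ((A ⊓ Cfsg.pCore 2 H : Subgroup H) : Set H))
    {w : V} (hw : w ∈ W) : delta φ r w ∈ fixAll φ := by
  haveI := H19.pCore_characteristic 2 H
  suffices h : Subgroup.normalClosure ((A ⊓ Cfsg.pCore 2 H : Subgroup H) : Set H) ≤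
      stabMod φ (fixAll φ) le_rfl w from mem_stabMod.1 (h hr)
  refine (Subgroup.closure_le _).2 fun y hy => mem_stabMod.2 ?_
  obtain ⟨e, he, hey⟩ := Group.mem_conjugatesOfSet_iff.1 hy
  obtain ⟨x, rfl⟩ := isConj_iff.1 hey
  by_cases hx : x ∈ M
  · have : φ (x * e * x⁻¹) w = w := by
      rw [map_mul, map_mul, MulAut.mul_apply, MulAut.mul_apply,
        c.fix_W (c.inv_W _ (M.inv_mem hx) w hw) e he.1, map_inv, MulAut.apply_inv_self]
    rw [delta_apply, this, div_self']
    exact one_mem _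
  · have hmem : x * e * x⁻¹ ∈ M :=
      c.pCore_le_M ((inferInstance : (Cfsg.pCore 2 H).Normal).conj_mem e he.2 x)
    exact inf_le_univ (c.sup_cj_eq_top hx)
      ⟨c.fix_W (W.div_mem (c.inv_W _ hmem w hw) hw), c.quad_cj x (conj_mem_cj he.1) w⟩

/-- The section has a group of homomorphisms not smaller than the index of its kernel. -/
theorem exists_big (c : Ctx φ A g k W M) (n : ℕ) (hbelow : Below.{u} n)
    (hn : Nat.card H + Nat.card V < n) {N : Subgroup V} (hN : IsSub φ A g N) (hne : N ≠ fixAll φ)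
    (R : Subgroup H) [hR : R.Normal] (hER : A ⊓ Cfsg.pCore 2 H ≤ R)
    (hd : ∀ r ∈ R, ∀ v ∈ N, delta φ r v ∈ fixAll φ) :
    ∃ F ≤ (pairHom φ N R hd).range, F ≠ ⊥ ∧ (annHom F).index ≤ Nat.card F := by
  by_contra hstrict
  push Not at hstrict
  set U := N ⧸ (fixAll φ).subgroupOf N with hUdef
  set Φ := pairHom φ N R hd with hΦ
  set π := quotAct φ N (fixAll φ) hN.inv (inv_fixAll φ) with hπ
  have hΦinv : ∀ χ ∈ Φ.range, ∀ h : H, χ.comp (π h).toMonoidHom ∈ Φ.range := by
    rintro _ ⟨r, rfl⟩ h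
    rw [pairHom_comp φ N R hN.inv hd r h]
    exact ⟨_, rfl⟩
  have hsep : annHom Φ.range = ⊥ := by
    set X := N ⊓ fixedSub φ (R : Set H) with hX
    have hXs : IsSub φ A g X := ⟨fun h v hv => ⟨hN.inv h v hv.1, fun r hr => by
      rw [show φ r (φ h v) = φ h (φ (h⁻¹ * r * h) v) by
        rw [← MulAut.mul_apply, ← map_mul, ← MulAut.mul_apply, ← map_mul]; group,
        hv.2 _ (by simpa using hR.conj_mem r hr h⁻¹)]⟩,
      le_inf hN.ge (univ_le_fixed φ _), inf_le_left.trans hN.le⟩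
    have hXI : X = fixAll φ := by
      by_contra hXne
      exact c.not_fixed n hbelow hn hXs hXne (inf_le_right.trans fun v hv e he => hv e (hER he))
    refine (Subgroup.eq_bot_iff_forall _).2 fun x => QuotientGroup.induction_on x fun v hv => ?_
    refine (QuotientGroup.eq_one_iff _).2 (Subgroup.mem_subgroupOf.2 ?_)
    rw [← hXI]
    refine ⟨v.2, fun r hr => ?_⟩
    have := congrArg Subtype.val (hv _ ⟨⟨r, hr⟩, rfl⟩)
    rw [pairHom_mk] at this
    rwa [Subgroup.coe_one, delta_apply, div_eq_one] at this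
  haveI : Nontrivial U := by
    rw [← Finite.one_lt_card_iff_nontrivial]
    refine Nat.lt_of_le_of_ne Nat.card_pos fun e => hne ?_
    refine (Subgroup.eq_of_le_of_card_ge hN.ge ?_).symm
    rw [← card_section hN.ge, ← hUdef, ← e, one_mul]
  obtain ⟨ρ, NU, 𝒯, q, hρ, hrange, hspan, hNU0, hNUinv, hq, h𝒯, hNU𝒯⟩ := exists_copies π
  have hlt : (annIn NU).relIndex Φ.range < Nat.card NU :=
    relIndex_annIn_lt Φ.range (ρ : Set (U →* U))
      (fun χ hχ f hf => comp_mem_of_actSpan π Φ.range hΦinv hχ (hρ hf)) NU hrange hspan hsep hNU0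
      hstrict
  -- the preimage of a subgroup of the section
  have hpre : ∀ T : Subgroup U, (∀ h : H, ∀ u ∈ T, π h u ∈ T) →
      IsSub φ A g ((T.comap (QuotientGroup.mk' _)).map N.subtype) ∧
      Nat.card T = width φ A ((T.comap (QuotientGroup.mk' _)).map N.subtype) *
        width φ A ((T.comap (QuotientGroup.mk' _)).map N.subtype) := by
    intro T hT
    set T' := T.comap (QuotientGroup.mk' ((fixAll φ).subgroupOf N)) with hT'
    have hs : IsSub φ A g (T'.map N.subtype) := by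
      refine ⟨?_, fun v hv => ⟨⟨v, hN.ge hv⟩, ?_, rfl⟩, (Subgroup.map_subtype_le _).trans hN.le⟩
      · rintro h _ ⟨v, hv, rfl⟩
        exact ⟨⟨φ h v, hN.inv h v v.2⟩, hT h _ hv, rfl⟩
      · show ((⟨v, hN.ge hv⟩ : N) : U) ∈ T
        rw [(QuotientGroup.eq_one_iff _).2 (Subgroup.mem_subgroupOf.2 hv)]
        exact one_mem _
    refine ⟨hs, Nat.eq_of_mul_eq_mul_right (Nat.card_pos : 0 < Nat.card (fixAll φ)) ?_⟩
    rw [← c.card_sub hs, Subgroup.card_map_of_injective N.subtype_injective,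
      ← H69.SFour.card_map_mul_card_inf_ker (QuotientGroup.mk' ((fixAll φ).subgroupOf N)) T',
      Subgroup.map_comap_eq_self_of_surjective (QuotientGroup.mk'_surjective _),
      QuotientGroup.ker_mk']
    congr 1
    rw [inf_eq_right.2 (fun v hv => show ((v : N) : U) ∈ T by
      rw [(QuotientGroup.eq_one_iff _).2 hv]; exact one_mem _)]
    exact (Nat.card_congr (Subgroup.subgroupOfEquivOfLe hN.ge).toEquiv).symm
  -- the action on `NU` and the restriction of the homomorphisms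
  let π₀ : (⊤ : Subgroup H) →* MulAut NU :=
    H69.SFour.restrictHom π ⊤ NU fun h _ u hu => hNUinv h u hu
  set 𝒯₀ : Set (Subgroup NU) := {T | T.map NU.subtype ∈ 𝒯} with h𝒯₀
  have hinv₀ : ∀ T ∈ 𝒯₀, ∀ h : (⊤ : Subgroup H), ∀ u ∈ T, π₀ h u ∈ T := fun T hT h u hu => by
    obtain ⟨v, hv, e⟩ := (h𝒯 _ hT).2.2.1 (h : H) (u : U) ⟨u, hu, rfl⟩
    rwa [show π₀ h u = v from Subtype.ext e.symm]
  have hirr₀ : ∀ T ∈ 𝒯₀, ∀ X ≤ T, (∀ h : (⊤ : Subgroup H), ∀ u ∈ X, π₀ h u ∈ X) →
      X = ⊥ ∨ X = T := by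
    intro T hT X hX hinv
    refine ((h𝒯 _ hT).2.2.2 (X.map NU.subtype) (Subgroup.map_mono hX) ?_).imp
      (fun e => (Subgroup.map_eq_bot_iff_of_injective _ NU.subtype_injective).1 e)
      (fun e => Subgroup.map_injective NU.subtype_injective e)
    rintro h _ ⟨u, hu, rfl⟩
    exact ⟨_, hinv ⟨h, trivial⟩ u hu, rfl⟩
  have hcard₀ : ∀ T ∈ 𝒯₀, Nat.card T = q := fun T hT => by
    rw [← (h𝒯 _ hT).2.1, Subgroup.card_map_of_injective NU.subtype_injective]
  have hspan₀ : (⊤ : Subgroup NU) ≤ sSup 𝒯₀ := by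
    intro u _
    have h1 : sSup 𝒯 ≤ (sSup 𝒯₀).map NU.subtype := sSup_le fun T hT => by
      have e : (T.subgroupOf NU).map NU.subtype = T :=
        Subgroup.map_subgroupOf_eq_of_le (h𝒯 T hT).1
      rw [← e]
      exact Subgroup.map_mono (le_sSup (show T.subgroupOf NU ∈ 𝒯₀ by
        show _ ∈ 𝒯; rw [e]; exact hT))
    obtain ⟨v, hv, e⟩ := h1 (hNU𝒯 u.2)
    rwa [← NU.subtype_injective e]
  let res : (U →* fixAll φ) →* (NU →* fixAll φ) :=
    { toFun := fun χ => χ.comp NU.subtype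
      map_one' := MonoidHom.one_comp _
      map_mul' := fun a b => MonoidHom.mul_comp a b _ }
  set Ψ := res.comp Φ with hΨ
  have hres : res.ker = annIn NU := by
    ext χ
    exact ⟨fun h w hw => DFunLike.congr_fun (MonoidHom.mem_ker.1 h) ⟨w, hw⟩,
      fun h => MonoidHom.mem_ker.2 (MonoidHom.ext fun w => h w w.2)⟩
  have hΨcard : Nat.card Ψ.range = (annIn NU).relIndex Φ.range := by
    rw [← hres, Subgroup.relIndex_ker, MonoidHom.map_range]
  have hΨcomp : ∀ (r : R) (h : (⊤ : Subgroup H)),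
      (Ψ r).comp (π₀ h).toMonoidHom =
        Ψ ⟨(h : H)⁻¹ * r * h, by simpa using hR.conj_mem r r.2 (h : H)⁻¹⟩ := fun r h =>
    MonoidHom.ext fun u => DFunLike.congr_fun (pairHom_comp φ N R hN.inv hd r (h : H)) (u : U)
  haveI : Finite (NU →* fixAll φ) := finite_hom
  haveI : Finite (NU →* ℂˣ) := finite_dual NU
  obtain ⟨i, hi⟩ := card_invariant_pow π₀ q 𝒯₀ hinv₀ hirr₀ hcard₀ hspan₀
    (fun z hz => ⟨MonoidHom.id ℂˣ, hz⟩) (⊤ : Subgroup (NU →* ℂˣ)) (fun _ _ _ => Subgroup.mem_top _)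
  rw [Subgroup.card_top, card_dual] at hi
  obtain ⟨j, hj⟩ := card_invariant_pow π₀ q 𝒯₀ hinv₀ hirr₀ hcard₀ hspan₀
    (fun z hz => CommGroup.exists_apply_ne_one_of_hasEnoughRootsOfUnity (fixAll φ) ℂ hz) Ψ.range
    (by rintro _ ⟨r, rfl⟩ h; rw [hΨcomp]; exact ⟨_, rfl⟩)
  have hji : j + 1 ≤ i := by
    rw [← hΨcard, hj, hi] at hlt
    exact (Nat.pow_lt_pow_iff_right hq).1 hlt
  -- the images of `E` and `E^g`
  set E := A ⊓ Cfsg.pCore 2 H with hE
  set X := (E.subgroupOf R).map Ψ with hX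
  set X' := ((cj g E).subgroupOf R).map Ψ with hX'
  have hgE : cj g E ≤ R := (cj_mono g hER).trans (cj_normal g R).le
  let g₀ : (⊤ : Subgroup H) := ⟨g, trivial⟩
  have hXcomp : X'.map (compEnd (π₀ g₀).toMonoidHom) = X := by
    apply le_antisymm
    · rintro _ ⟨_, ⟨⟨y, hyR⟩, hy, rfl⟩, rfl⟩
      refine ⟨_, ?_, (hΨcomp ⟨y, hyR⟩ g₀).symm⟩
      show g⁻¹ * y * g ∈ E
      exact mem_cj.1 hy
    · rintro _ ⟨⟨e, heR⟩, he, rfl⟩
      refine ⟨Ψ ⟨g * e * g⁻¹, hR.conj_mem e heR g⟩,
        ⟨⟨g * e * g⁻¹, hR.conj_mem e heR g⟩, conj_mem_cj he, rfl⟩, ?_⟩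
      refine (hΨcomp _ g₀).trans (congrArg Ψ (Subtype.ext ?_))
      show g⁻¹ * (g * e * g⁻¹) * g = e
      group
  have hcardX : Nat.card X' = Nat.card X := by
    have hinj : Function.Injective (compEnd (Z := fixAll φ) (π₀ g₀).toMonoidHom) := fun a b hab =>
      MonoidHom.ext fun u => by
        obtain ⟨v, rfl⟩ := (π₀ g₀).surjective u
        exact DFunLike.congr_fun hab v
    rw [← hXcomp]
    exact (Subgroup.card_map_of_injective hinj).symm
  have hfixX : ∀ (a : H), a ∈ A → ∀ χ ∈ X, χ.comp (π₀ ⟨a, trivial⟩).toMonoidHom = χ := by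
    rintro a ha _ ⟨⟨e, heR⟩, he, rfl⟩
    refine (hΨcomp _ _).trans (congrArg Ψ (Subtype.ext ?_))
    show a⁻¹ * e * a = e
    have he' : e ∈ A := he.1
    have h2 := inv_eq_of_mul_eq_one_right (c.invol _ (mul_mem ha he'))
    rw [mul_inv_rev, inv_eq_of_mul_eq_one_right (c.invol a ha),
      inv_eq_of_mul_eq_one_right (c.invol e he')] at h2
    rw [mul_assoc, h2, inv_mul_cancel_left]
  have hdisj : X ⊓ X' = ⊥ := by
    refine (Subgroup.eq_bot_iff_forall _).2 fun χ hχ => ?_
    let K : Subgroup H :=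
      { carrier := {h | χ.comp (π₀ ⟨h, trivial⟩).toMonoidHom = χ}
        one_mem' := MonoidHom.ext fun u => congrArg χ (by
          show π₀ 1 u = u
          rw [map_one, MulAut.one_apply])
        mul_mem' := fun {a b} ha hb => MonoidHom.ext fun u => by
          show χ (π₀ (⟨a, trivial⟩ * ⟨b, trivial⟩) u) = χ u
          rw [map_mul, MulAut.mul_apply]
          exact (DFunLike.congr_fun ha _).trans (DFunLike.congr_fun hb u)
        inv_mem' := fun {a} ha => MonoidHom.ext fun u => by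
          show χ (π₀ (⟨a, trivial⟩⁻¹) u) = χ u
          rw [map_inv]
          refine ((DFunLike.congr_fun ha _).symm.trans ?_)
          show χ (π₀ ⟨a, trivial⟩ ((π₀ ⟨a, trivial⟩)⁻¹ u)) = χ u
          rw [MulAut.apply_inv_self] }
    have hK : (⊤ : Subgroup H) ≤ K := by
      rw [← c.gen]
      refine sup_le (fun a ha => hfixX a ha χ hχ.1) ?_
      rintro _ ⟨a, ha, rfl⟩
      obtain ⟨⟨y, hyR⟩, hy, e⟩ := hχ.2
      show χ.comp _ = χ
      rw [← e]
      refine (hΨcomp _ _).trans (congrArg Ψ (Subtype.ext ?_))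
      show (g * a * g⁻¹)⁻¹ * y * (g * a * g⁻¹) = y
      have he : g⁻¹ * y * g ∈ E := mem_cj.1 hy
      have h2 := inv_eq_of_mul_eq_one_right (c.invol _ (mul_mem ha he.1))
      rw [mul_inv_rev, inv_eq_of_mul_eq_one_right (c.invol a ha),
        inv_eq_of_mul_eq_one_right (c.invol _ he.1)] at h2
      calc (g * a * g⁻¹)⁻¹ * y * (g * a * g⁻¹) = g * (a⁻¹ * ((g⁻¹ * y * g) * a)) * g⁻¹ := by group
        _ = g * (a⁻¹ * (a * (g⁻¹ * y * g))) * g⁻¹ := by rw [h2]
        _ = y := by group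
    refine MonoidHom.ext fun u => ?_
    have hall : ∀ T ∈ 𝒯₀, T ≤ χ.ker := by
      intro T hT
      have hinv : ∀ h : (⊤ : Subgroup H), ∀ u ∈ T ⊓ χ.ker, π₀ h u ∈ T ⊓ χ.ker := fun h u hu =>
        ⟨hinv₀ T hT h u hu.1, (DFunLike.congr_fun (show χ.comp (π₀ h).toMonoidHom = χ from
          hK (Subgroup.mem_top (h : H))) u).trans hu.2⟩
      refine le_trans (le_of_eq ((hirr₀ T hT _ inf_le_left hinv).resolve_left fun e => ?_).symm)
        inf_le_right
      -- `H` fixes `T` pointwise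
      have hfix : ∀ h : H, ∀ u ∈ T, π h (u : U) = u := fun h u hu => by
        have hm : π₀ ⟨h, trivial⟩ u / u ∈ T ⊓ χ.ker := ⟨T.div_mem (hinv₀ T hT _ u hu) hu, by
          show χ (_ / _) = 1
          rw [map_div, show χ (π₀ ⟨h, trivial⟩ u) = χ u from
            DFunLike.congr_fun (show χ.comp _ = χ from hK (Subgroup.mem_top h)) u, div_self']⟩
        rw [e, Subgroup.mem_bot, div_eq_one] at hm
        exact congrArg Subtype.val hm
      obtain ⟨hs, hc⟩ := hpre (T.map NU.subtype) (h𝒯 _ hT).2.2.1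
      rw [(h𝒯 _ hT).2.1] at hc
      suffices hw : width φ A ((((T.map NU.subtype).comap
          (QuotientGroup.mk' ((fixAll φ).subgroupOf N)))).map N.subtype) = 1 by
        rw [hw] at hc; omega
      refine Subgroup.relIndex_eq_one.2 fun v hv => ?_
      refine c.mem_univ (x := 1) (by rw [cj_one]; exact hv.2) fun h => ?_
      obtain ⟨v', hv', rfl⟩ := hv.1
      obtain ⟨u, hu, eu⟩ := hv'
      refine (quotAct_fix_iff φ N (fixAll φ) hN.inv (inv_fixAll φ) h v').1 ?_
      rw [show ((v' : N) : U) = u from eu.symm]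
      exact hfix h u hu
    exact (sSup_le hall) (hspan₀ (Subgroup.mem_top u))
  -- the orders
  have hT𝒯 : ∃ T, T ∈ 𝒯 := by
    by_contra h
    push Not at h
    refine hNU0 (le_bot_iff.1 (hNU𝒯.trans (sSup_le fun T hT => absurd hT (h T))))
  obtain ⟨T, hT⟩ := hT𝒯
  obtain ⟨hTle, hTc, hTinv, hTirr⟩ := h𝒯 T hT
  obtain ⟨h1, hc1⟩ := hpre T hTinv
  rw [hTc] at hc1
  set V₁ := (T.comap (QuotientGroup.mk' ((fixAll φ).subgroupOf N))).map N.subtype with hV₁
  have hne1 : V₁ ≠ fixAll φ := fun e => by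
    have : width φ A V₁ = 1 := Subgroup.relIndex_eq_one.2 (inf_le_left.trans e.le)
    rw [this] at hc1; omega
  have hbound := c.bound n hbelow hn h1 hne1 fun Y hY hYs => by
    set T₁ := (Y.subgroupOf N).map (QuotientGroup.mk' ((fixAll φ).subgroupOf N)) with hT₁
    have hT₁le : T₁ ≤ T := by
      rintro _ ⟨v, hv, rfl⟩
      obtain ⟨v', hv', e⟩ := hY (Subgroup.mem_subgroupOf.1 hv)
      rwa [N.subtype_injective e] at hv'
    refine (hTirr T₁ hT₁le ?_).imp (fun e => le_antisymm (fun v hv => ?_) hYs.ge)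
      (fun e => le_antisymm hY ?_)
    · rintro h _ ⟨v, hv, rfl⟩
      exact ⟨⟨φ h v, hN.inv h v v.2⟩,
        Subgroup.mem_subgroupOf.2 (hYs.inv h v (Subgroup.mem_subgroupOf.1 hv)), rfl⟩
    · have hvN : v ∈ N := Subgroup.map_subtype_le _ (hY hv)
      have hm : ((⟨v, hvN⟩ : N) : U) ∈ T₁ := ⟨⟨v, hvN⟩, hv, rfl⟩
      rw [e, Subgroup.mem_bot, QuotientGroup.eq_one_iff] at hm
      exact Subgroup.mem_subgroupOf.1 hm
    · rintro _ ⟨v, hv, rfl⟩
      obtain ⟨w, hw, ew⟩ := e.symm.le (show ((v : N) : U) ∈ T from hv)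
      have hd' : (w : V) / v ∈ fixAll φ := Subgroup.mem_subgroupOf.1 (QuotientGroup.eq_iff_div_mem.1 ew)
      show (v : V) ∈ Y
      rw [← div_div_cancel (w : V) (v : V)]
      exact Y.div_mem (Subgroup.mem_subgroupOf.1 hw) (hYs.ge hd')
  obtain ⟨hN3, hc3⟩ := hpre NU hNUinv
  set N₃ := (NU.comap (QuotientGroup.mk' ((fixAll φ).subgroupOf N))).map N.subtype with hN₃
  have hkerle : Nat.card (E ⊓ stabSub φ N₃ : Subgroup H) * width φ A N₃ ≤ k :=
    c.card_mul_width_le hN3 (inf_le_left.trans inf_le_left)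
      (fun e => c.not_le_pCore (e.symm.le.trans (inf_le_left.trans inf_le_right)))
      (fun v hv e he => he.2 v hv)
  have hker : (E.subgroupOf R ⊓ Ψ.ker).map R.subtype = E ⊓ stabSub φ N₃ := by
    ext y
    constructor
    · rintro ⟨r, ⟨hr, hk'⟩, rfl⟩
      refine ⟨Subgroup.mem_subgroupOf.1 hr, ?_⟩
      rintro _ ⟨v, hv, rfl⟩
      have := congrArg Subtype.val (DFunLike.congr_fun (MonoidHom.mem_ker.1 hk') ⟨_, hv⟩)
      rw [← div_eq_one]
      exact this
    · rintro ⟨hy, hys⟩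
      refine ⟨⟨y, hER hy⟩, ⟨Subgroup.mem_subgroupOf.2 hy, MonoidHom.mem_ker.2 (MonoidHom.ext ?_)⟩, rfl⟩
      rintro ⟨u, hu⟩
      obtain ⟨v, rfl⟩ := QuotientGroup.mk'_surjective _ u
      refine Subtype.ext ?_
      show delta φ y (v : V) = 1
      rw [delta_apply, (hys (v : V) ⟨v, hu, rfl⟩ : φ y (v : V) = v), div_self']
  have hXcard : Nat.card X * Nat.card (E ⊓ stabSub φ N₃ : Subgroup H) = Nat.card E := by
    rw [← hker, Subgroup.card_map_of_injective R.subtype_injective, hX,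
      H69.SFour.card_map_mul_card_inf_ker, Nat.card_congr (Subgroup.subgroupOfEquivOfLe hER).toEquiv]
  have hsup : Nat.card X * Nat.card X' ≤ Nat.card Ψ.range := by
    rw [← card_sup_mul_card_inf X X', hdisj, Subgroup.card_bot, mul_one]
    exact Subgroup.card_le_of_le
      (sup_le (Subgroup.map_le_range _ _) (Subgroup.map_le_range _ _))
  have hbig : width φ A N₃ < Nat.card X * width φ A V₁ := by
    refine Nat.lt_of_mul_lt_mul_left (a := Nat.card (E ⊓ stabSub φ N₃ : Subgroup H)) ?_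
    rw [← mul_assoc, mul_comm (Nat.card (E ⊓ stabSub φ N₃ : Subgroup H)) (Nat.card X), hXcard]
    exact hkerle.trans_lt hbound
  rw [hcardX] at hsup
  have hfin : Nat.card Ψ.range * q ≤ Nat.card NU := by
    rw [hj, hi, ← pow_succ]
    exact Nat.pow_le_pow_right (by omega) hji
  have h4 : Nat.card X * Nat.card X * q ≤ width φ A N₃ * width φ A N₃ :=
    hc3 ▸ (Nat.mul_le_mul_right q hsup).trans hfin
  have h5 := Nat.mul_lt_mul_of_lt_of_lt hbig hbig
  rw [hc1] at h4
  exact absurd h4 (not_le_of_gt (lt_of_lt_of_eq h5 (by ring)))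

/-- The local step: `A^g` centralizes `W`, or a subgroup of `M` is an offender on `W`. -/
theorem exists_offender (c : Ctx φ A g k W M) (n : ℕ) (hbelow : Below.{u} n)
    (hn : Nat.card H + Nat.card V < n) :
    W ≤ fixedSub φ (cj g A : Set H) ∨
      ∃ F : Subgroup H, F ≤ M ∧ (∀ f ∈ F, ∀ w ∈ W, φ (f * f) w = w) ∧
        (∃ f ∈ F, ∃ w ∈ W, φ f w ≠ w) ∧
        Nat.card W * Nat.card (F ⊓ stabSub φ W : Subgroup H) ≤
          Nat.card F * Nat.card (W ⊓ fixedSub φ (F : Set H) : Subgroup V) := by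
  by_cases hWI : W ≤ fixAll φ
  · exact Or.inl (hWI.trans (univ_le_fixed φ _))
  refine Or.inr ?_
  set R := Subgroup.normalClosure ((A ⊓ Cfsg.pCore 2 H : Subgroup H) : Set H) with hR
  haveI hRn : R.Normal := Subgroup.normalClosure_normal
  haveI := H19.pCore_characteristic 2 H
  set N := fixAll φ ⊔ ⨆ h : H, W.map (φ h).toMonoidHom with hNdef
  have hWN : W ≤ N := fun w hw => Subgroup.mem_sup_right
    (Subgroup.mem_iSup_of_mem 1 ⟨w, hw, by rw [map_one]; rfl⟩)
  have hN : IsSub φ A g N := by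
    refine ⟨fun h => ?_, le_sup_left, sup_le ((univ_le_fixed φ _).trans le_sup_left)
      (iSup_le fun h => ?_)⟩
    · have hle : N ≤ N.comap (φ h).toMonoidHom :=
        sup_le (fun v hv => Subgroup.mem_sup_left (inv_fixAll φ h v hv)) (iSup_le fun h' => by
          rintro _ ⟨w, hw, rfl⟩
          refine Subgroup.mem_sup_right (Subgroup.mem_iSup_of_mem (h * h') ⟨w, hw, ?_⟩)
          show φ (h * h') w = φ h (φ h' w)
          rw [map_mul, MulAut.mul_apply])
      exact fun v hv => hle hv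
    · rintro _ ⟨w, hw, rfl⟩
      exact c.isSub_sup.inv h w (Subgroup.mem_sup_left (c.fix_W hw))
  have hne : N ≠ fixAll φ := fun e => hWI (hWN.trans e.le)
  have hd : ∀ r ∈ R, ∀ v ∈ N, delta φ r v ∈ fixAll φ := by
    intro r hr
    have hle : N ≤ (fixAll φ).comap (delta φ r) :=
      sup_le (fun v hv => by
        show delta φ r v ∈ fixAll φ
        rw [delta_apply, hv r trivial, div_self']; exact one_mem _) (iSup_le fun h => by
        rintro _ ⟨w, hw, rfl⟩
        show delta φ r (φ h w) ∈ fixAll φ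
        have e := delta_conj φ h (h⁻¹ * r * h) (φ h w)
        rw [map_inv, MulAut.inv_apply_self, show h * (h⁻¹ * r * h) * h⁻¹ = r by group] at e
        rw [e]
        exact inv_fixAll φ h _ (c.delta_normalClosure (by
          have := hRn.conj_mem r hr h⁻¹
          rwa [inv_inv] at this) hw))
    exact fun v hv => hle hv
  have hER : A ⊓ Cfsg.pCore 2 H ≤ R := Subgroup.le_normalClosure
  set Φ := pairHom φ N R hd with hΦ
  set π := quotAct φ N (fixAll φ) hN.inv (inv_fixAll φ) with hπ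
  haveI : Finite (N ⧸ (fixAll φ).subgroupOf N →* fixAll φ) := finite_hom
  obtain ⟨F₀, ⟨hF₀R, hF₀ne, hF₀⟩, hmin⟩ := Set.exists_min_image
    {F | F ≤ Φ.range ∧ F ≠ ⊥ ∧ (annHom F).index ≤ Nat.card F} (fun F => Nat.card F)
    (Set.toFinite _) (c.exists_big n hbelow hn hN hne R hER hd)
  let θ : W →* N ⧸ (fixAll φ).subgroupOf N :=
    (QuotientGroup.mk' _).comp (Subgroup.inclusion hWN)
  -- translate so that `W` is not annihilated
  obtain ⟨h₀, hh₀⟩ : ∃ h₀ : H, ¬ θ.range ≤ (annHom F₀).comap (π h₀).toMonoidHom := by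
    by_contra hall
    push Not at hall
    refine hF₀ne ((Subgroup.eq_bot_iff_forall _).2 fun χ hχ => MonoidHom.ext fun x =>
      QuotientGroup.induction_on x fun v => ?_)
    have hle : N.subgroupOf N ≤ χ.ker.comap (QuotientGroup.mk' _) := by
      have : N ≤ (χ.ker.comap (QuotientGroup.mk' _)).map N.subtype := by
        conv_lhs => rw [hNdef]
        refine sup_le (fun v hv => ⟨⟨v, hN.ge hv⟩, ?_, rfl⟩) (iSup_le fun h => ?_)
        · show χ ((⟨v, hN.ge hv⟩ : N) : N ⧸ (fixAll φ).subgroupOf N) = 1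
          rw [(QuotientGroup.eq_one_iff _).2 (Subgroup.mem_subgroupOf.2 hv), map_one]
        · rintro _ ⟨w, hw, rfl⟩
          exact ⟨⟨φ h w, hN.inv h w (hWN hw)⟩, hall h ⟨⟨w, hw⟩, rfl⟩ χ hχ, rfl⟩
      intro v hv
      obtain ⟨v', hv', e⟩ := this (Subgroup.mem_subgroupOf.1 hv)
      rwa [← N.subtype_injective e]
    exact hle (Subgroup.mem_subgroupOf.2 v.2)
  set F₁ := F₀.map (compEnd (π h₀).toMonoidHom) with hF₁def
  have hF₁ann : annHom F₁ = (annHom F₀).comap (π h₀).toMonoidHom := by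
    ext u
    rw [Subgroup.mem_comap, mem_annHom, mem_annHom]
    exact ⟨fun h ψ hψ => h _ (Subgroup.mem_map_of_mem _ hψ),
      fun h => by rintro _ ⟨ψ, hψ, rfl⟩; exact h ψ hψ⟩
  have hF₁card : Nat.card F₁ = Nat.card F₀ := Subgroup.card_map_of_injective fun a b hab =>
    MonoidHom.ext fun u => by
      obtain ⟨v, rfl⟩ := (π h₀).surjective u
      exact DFunLike.congr_fun hab v
  have hF₁R : F₁ ≤ Φ.range := by
    rintro _ ⟨_, hψ, rfl⟩
    obtain ⟨r, rfl⟩ := hF₀R hψ
    exact ⟨_, (pairHom_comp φ N R hN.inv hd r h₀).symm⟩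
  have hF₁ : (annHom F₁).index ≤ Nat.card F₁ := by
    rw [hF₁ann, hF₁card,
      Subgroup.index_comap_of_surjective _ (f := (π h₀).toMonoidHom) (π h₀).surjective]
    exact hF₀
  have hW1 : ¬ θ.range ≤ annHom F₁ := by rw [hF₁ann]; exact hh₀
  have hkey := relIndex_annHom_le F₁ hF₁ (fun F' hF' hne' hneq => by
    by_contra hle
    push Not at hle
    have := hmin F' ⟨hF'.trans hF₁R, hne', hle⟩
    rw [← hF₁card] at this
    exact hneq (Subgroup.eq_of_le_of_card_ge hF' this)) θ.range hW1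
  set F := (F₁.comap Φ).map R.subtype with hFdef
  have hFR : F ≤ R := Subgroup.map_subtype_le _
  have hRM : R ≤ M :=
    (Subgroup.normalClosure_le_normal (Set.inter_subset_right (α := H))).trans c.pCore_le_M
  refine ⟨F, hFR.trans hRM, fun f hf w hw => ?_, ?_, ?_⟩
  · have h := hd f (hFR hf) w (hWN hw)
    rw [← div_eq_one, ← delta_apply, delta_mul, h f trivial, c.sq]
  · by_contra hall
    push Not at hall
    refine hW1 ?_
    rintro _ ⟨w, rfl⟩ χ hχ
    obtain ⟨r, rfl⟩ := hF₁R hχ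
    refine Subtype.ext ?_
    show delta φ r (w : V) = 1
    rw [delta_apply, hall r ⟨r, hχ, rfl⟩ w w.2, div_self']
  · have hmap : (F₁.comap Φ).map Φ = F₁ := Subgroup.map_comap_eq_self hF₁R
    have e1 : (annHom F₁).relIndex θ.range = (fixedSub φ (F : Set H)).relIndex W := by
      rw [← Subgroup.index_comap, Subgroup.relIndex]
      congr 1
      ext w
      rw [Subgroup.mem_comap, Subgroup.mem_subgroupOf]
      constructor
      · rintro h _ ⟨r, hr, rfl⟩
        have := congrArg Subtype.val (h _ hr)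
        rw [← div_eq_one]
        exact this
      · intro h χ hχ
        obtain ⟨r, rfl⟩ := hF₁R hχ
        refine Subtype.ext ?_
        show delta φ r (w : V) = 1
        rw [delta_apply, h r ⟨r, hχ, rfl⟩, div_self']
    have e2 : (annIn θ.range).relIndex F₁ = (stabSub φ W).relIndex F := by
      have e := Subgroup.relIndex_comap (annIn θ.range) Φ (F₁.comap Φ)
      rw [hmap] at e
      rw [← e, hFdef, ← Subgroup.relIndex_comap]
      congr 1
      ext r
      rw [Subgroup.mem_comap, Subgroup.mem_comap]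
      constructor
      · intro h w hw
        have := congrArg Subtype.val (h _ ⟨⟨w, hw⟩, rfl⟩)
        rw [← div_eq_one]
        exact this
      · rintro h _ ⟨w, rfl⟩
        refine Subtype.ext ?_
        show delta φ r (w : V) = 1
        have hh : φ (r : H) (w : V) = w := h w w.2
        rw [delta_apply, hh, div_self']
    rw [e1, e2] at hkey
    have hc : ∀ {G : Type u} [Group G] (X Y : Subgroup G),
        X.relIndex Y * Nat.card (Y ⊓ X : Subgroup G) = Nat.card Y := fun {G} _ X Y => by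
      have h1 := Subgroup.relIndex_mul_relIndex (⊥ : Subgroup G) (X ⊓ Y) Y bot_le inf_le_right
      rw [Subgroup.relIndex_bot_left, Subgroup.relIndex_bot_left,
        Subgroup.inf_relIndex_right] at h1
      rw [inf_comm, mul_comm]
      exact h1
    rw [← hc (fixedSub φ (F : Set H)) W, ← hc (stabSub φ W) F]
    calc _ = (fixedSub φ (F : Set H)).relIndex W *
          (Nat.card (W ⊓ fixedSub φ (F : Set H) : Subgroup V) *
            Nat.card (F ⊓ stabSub φ W : Subgroup H)) := by ring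
      _ ≤ (stabSub φ W).relIndex F * _ := Nat.mul_le_mul_right _ hkey
      _ = _ := by ring

end Ctx

end Cfsg.Agent.H96.Offender
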