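import Cfsg.Agent.H96.Offender.Local
import Cfsg.Agent.H96.Offender.Free
import Cfsg.Agent.H96.Offender.Config
import Cfsg.Agent.H51.SFourFree.Factor
import Mathlib

/-!
An `S₃`-free group without normal 2-subgroups acting faithfully on an elementary abelian 2-group has
no nontrivial offender.

In a least counterexample a subgroup `W` fixed by the least offenders of a Sylow 2-subgroup gives a
local situation, which yields either a smaller counterexample on `W` or the base case.
-/

set_option autoImplicit false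
set_option linter.style.haveILetI false
set_option maxHeartbeats 400000

namespace Cfsg.Agent.H96.Offender

open Cfsg.Agent.H83 (fixedSub delta delta_apply mem_fixedSub)
open Cfsg.Agent.H61 (cj cj_cj cj_one cj_mono card_cj mem_cj conj_mem_cj cj_normal cj_eq_self)
open Cfsg.Agent.H50.QuadraticOffender (delta_mul card_sup_mul_card_inf)
open Cfsg.Agent.H69.SFour (Best stabSub mem_stabSub restrictHom)

universe u

section Irreducible

variable {K U : Type*} [Group K] [CommGroup U] [Finite K] [Finite U]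

omit [Finite K] in
/-- An irreducible group of automorphisms of a 2-group has no normal 2-subgroup. -/
theorem pCore_range_eq_bot (ψ : K →* MulAut U) (hU : ∀ u : U, u * u = 1)
    (hirr : ∀ X : Subgroup U, (∀ k : K, ∀ u ∈ X, ψ k u ∈ X) → X = ⊥ ∨ X = ⊤) :
    Cfsg.pCore 2 ψ.range = ⊥ := by
  haveI : Fact (Nat.Prime 2) := ⟨Nat.prime_two⟩
  set P := Cfsg.pCore 2 ψ.range with hP
  haveI : P.Normal := H19.pCore_normal 2 ψ.range
  refine (Subgroup.eq_bot_iff_forall P).2 fun p hp => Subtype.ext (MulEquiv.ext fun u => ?_)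
  set F := fixedSub ψ.range.subtype (P : Set ψ.range) with hF
  suffices h : F = ⊤ from (h ▸ Subgroup.mem_top u : u ∈ F) p hp
  by_cases hu : ∃ w : U, w ≠ 1
  · obtain ⟨w, hw⟩ := hu
    letI : MulAction P U := MulAction.compHom _ (ψ.range.subtype.comp P.subtype)
    have hdvd : 2 ∣ Nat.card U := by
      rw [← orderOf_eq_prime (x := w) (p := 2) (by rw [pow_two]; exact hU w) hw]
      exact orderOf_dvd_natCard w
    have hone : (1 : U) ∈ MulAction.fixedPoints P U :=
      fun q => map_one (((q : ψ.range) : MulAut U).toMonoidHom)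
    obtain ⟨x, hx, hne⟩ :=
      (H19.pCore_isPGroup (G := ψ.range) 2).exists_fixed_point_of_prime_dvd_card_of_fixed_point
        _ hdvd hone
    refine (hirr F fun k v hv q hq => ?_).resolve_left fun e => hne ?_
    · let r : ψ.range := ⟨ψ k, k, rfl⟩
      have hq' := hv (r⁻¹ * q * r) (by simpa using Subgroup.Normal.conj_mem ‹P.Normal› q hq r⁻¹)
      show (q : MulAut U) (ψ k v) = ψ k v
      conv_rhs => rw [← hq']
      show _ = ψ k (((r⁻¹ * q * r : ψ.range) : MulAut U) v)
      rw [← MulAut.mul_apply, ← MulAut.mul_apply, Subgroup.coe_mul, Subgroup.coe_mul,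
        Subgroup.coe_inv, ← mul_assoc, ← mul_assoc, mul_inv_cancel, one_mul]
    · have : x ∈ F := fun q hq => hx ⟨q, hq⟩
      rw [e, Subgroup.mem_bot] at this
      exact this.symm
  · push Not at hu
    exact top_unique fun v _ => (hu v).symm ▸ one_mem _

end Irreducible

/-- A group of exponent two is elementary abelian. -/
theorem isElementaryAbelian_of_invol {H : Type*} [Group H] {A : Subgroup H}
    (hA : ∀ a ∈ A, a * a = 1) : Cfsg.IsElementaryAbelian 2 A := by
  refine ⟨⟨⟨fun a b => Subtype.ext ?_⟩⟩, fun a ha => by rw [pow_two]; exact hA a ha⟩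
  have h2 := inv_eq_of_mul_eq_one_right (hA _ (A.mul_mem a.2 b.2))
  rw [mul_inv_rev, inv_eq_of_mul_eq_one_right (hA _ a.2), inv_eq_of_mul_eq_one_right (hA _ b.2)] at h2
  exact h2.symm

theorem invol_of_isElementaryAbelian {H : Type*} [Group H] {A : Subgroup H}
    (hA : Cfsg.IsElementaryAbelian 2 A) {a : H} (ha : a ∈ A) : a * a = 1 := by
  rw [← pow_two]; exact hA.2 a ha

variable {H V : Type u} [Group H] [CommGroup V] [Finite H] [Finite V]

omit [CommGroup V] [Finite V] in
/-- A normal subgroup acting, up to involutions, faithfully on a smaller module has no offender. -/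
theorem no_offender_smaller {n : ℕ} (hbelow : Below.{u} n) (hn : Nat.card H + Nat.card V ≤ n)
    (h3 : ¬ Cfsg.Involves (Equiv.Perm (Fin 3)) H) (hcore : Cfsg.pCore 2 H = ⊥)
    (L : Subgroup H) [L.Normal] {U : Type u} [CommGroup U] [Finite U] (hU : ∀ u : U, u * u = 1)
    (hlt : Nat.card U < Nat.card V) (ψ : L →* MulAut U) (hker : ∀ x, ψ x = 1 → x * x = 1)
    {A : Subgroup H} (hAL : A ≤ L) (hA : ∀ a ∈ A, a * a = 1)
    (hoff : Nat.card U ≤ Nat.card A * Nat.card (fixedSub ψ (A.subgroupOf L : Set L))) : A = ⊥ := by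
  haveI : Fact (Nat.Prime 2) := ⟨Nat.prime_two⟩
  have hLcore : Cfsg.pCore 2 L = ⊥ := by
    have hnorm : ((Cfsg.pCore 2 L).map L.subtype).Normal := Subgroup.normalizer_eq_top_iff.1
      (top_le_iff.1 ((Subgroup.normalizer_eq_top_iff.2 ‹L.Normal›).ge.trans
        (H83.normalizer_le_map_char L _ (H19.pCore_characteristic 2 L))))
    have h := H19.le_pCore hnorm ((H19.pCore_isPGroup (G := L) 2).map _)
    rw [hcore, le_bot_iff, Subgroup.map_eq_bot_iff_of_injective _ L.subtype_injective] at h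
    exact h
  have hinj : Function.Injective ψ := by
    have h : ψ.ker ≤ Cfsg.pCore 2 L := H19.le_pCore inferInstance fun x => ⟨1, Subtype.ext (by
      rw [SubmonoidClass.coe_pow, pow_one, pow_two]
      exact hker x x.2)⟩
    rw [hLcore, le_bot_iff] at h
    exact (MonoidHom.ker_eq_bot_iff ψ).1 h
  have hlt' : Nat.card L + Nat.card U < n := by
    have := Subgroup.card_le_card_group L
    omega
  have h := hbelow L U ψ hlt' hinj hU (fun h => h3 (H83.involves_of_subgroup h)) hLcore
    (A.subgroupOf L)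
    (isElementaryAbelian_of_invol fun a ha => Subtype.ext (hA a (Subgroup.mem_subgroupOf.1 ha)))
    (by rwa [Nat.card_congr (Subgroup.subgroupOfEquivOfLe hAL).toEquiv])
  rw [← Subgroup.map_subgroupOf_eq_of_le hAL, h, Subgroup.map_bot]

/-- No offender if a normal subgroup over it centralizes a nontrivial invariant subgroup fixed by it. -/
theorem no_offender_of_fixed {n : ℕ} (hbelow : Below.{u} n) (hn : Nat.card H + Nat.card V ≤ n)
    {φ : H →* MulAut V} (hφ : Function.Injective φ) (hV : ∀ v : V, v * v = 1)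
    (h3 : ¬ Cfsg.Involves (Equiv.Perm (Fin 3)) H) (hcore : Cfsg.pCore 2 H = ⊥)
    (L : Subgroup H) [L.Normal] {A : Subgroup H} (hAL : A ≤ L) (hA : ∀ a ∈ A, a * a = 1)
    (hoff : Nat.card V ≤ Nat.card A * Nat.card (fixedSub φ (A : Set H)))
    {W : Subgroup V} (hW : W ≠ ⊥) (hinv : ∀ h : H, ∀ w ∈ W, φ h w ∈ W)
    (hfix : W ≤ fixedSub φ (L : Set H)) : A = ⊥ := by
  have hcardW := (Subgroup.card_eq_card_quotient_mul_card_subgroup W)
  let q : H →* MulAut (V ⧸ W) :=
    { toFun := fun h => QuotientGroup.congr W W (φ h) (Subgroup.eq_of_le_of_card_ge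
        (by rintro _ ⟨w, hw, rfl⟩; exact hinv h w hw)
        (Subgroup.card_map_of_injective (φ h).injective).ge)
      map_one' := MulEquiv.ext fun x => QuotientGroup.induction_on x fun v =>
        congrArg QuotientGroup.mk (show φ 1 v = v by simp)
      map_mul' := fun h h' => MulEquiv.ext fun x => QuotientGroup.induction_on x fun v =>
        congrArg QuotientGroup.mk (show φ (h * h') v = φ h (φ h' v) by simp) }
  refine no_offender_smaller hbelow hn h3 hcore L
    (fun u => QuotientGroup.induction_on u fun v => congrArg QuotientGroup.mk (hV v)) ?_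
    (q.comp L.subtype) (fun x hx => Subtype.ext (hφ (MulEquiv.ext fun v => ?_))) hAL hA ?_
  · rw [hcardW]
    exact lt_mul_of_one_lt_right Nat.card_pos ((Subgroup.one_lt_card_iff_ne_bot W).2 hW)
  · have h1 : delta φ (x : H) v ∈ W :=
      QuotientGroup.eq_iff_div_mem.1 (DFunLike.congr_fun hx (v : V ⧸ W))
    show φ ((x : H) * x) v = φ 1 v
    rw [map_one, MulAut.one_apply, ← div_eq_one, ← delta_apply, delta_mul, hfix h1 x x.2, hV]
  · set C := fixedSub φ (A : Set H) with hC
    have hle : C.map (QuotientGroup.mk' W) ≤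
        fixedSub (q.comp L.subtype) (A.subgroupOf L : Set L) := by
      rintro _ ⟨v, hv, rfl⟩ a ha
      exact congrArg QuotientGroup.mk (hv (a : H) (Subgroup.mem_subgroupOf.1 ha))
    have hWC : W ≤ C := hfix.trans fun v hv a ha => hv a (hAL ha)
    have h2 := H69.SFour.card_map_mul_card_inf_ker (QuotientGroup.mk' W) C
    rw [QuotientGroup.ker_mk', inf_eq_right.2 hWC] at h2
    refine Nat.le_of_mul_le_mul_right ?_ (Nat.card_pos : 0 < Nat.card W)
    calc Nat.card (V ⧸ W) * Nat.card W = Nat.card V := hcardW.symm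
      _ ≤ Nat.card A * Nat.card C := hoff
      _ = Nat.card A * Nat.card (C.map (QuotientGroup.mk' W)) * Nat.card W := by rw [← h2, mul_assoc]
      _ ≤ _ := Nat.mul_le_mul_right _ (Nat.mul_le_mul_left _ (Subgroup.card_le_of_le hle))

/-- No offender if everything moves the module into a proper invariant subgroup over its fixed points. -/
theorem no_offender_of_moved {n : ℕ} (hbelow : Below.{u} n) (hn : Nat.card H + Nat.card V ≤ n)
    {φ : H →* MulAut V} (hφ : Function.Injective φ) (hV : ∀ v : V, v * v = 1)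
    (h3 : ¬ Cfsg.Involves (Equiv.Perm (Fin 3)) H) (hcore : Cfsg.pCore 2 H = ⊥)
    {A : Subgroup H} (hA : ∀ a ∈ A, a * a = 1)
    (hoff : Nat.card V ≤ Nat.card A * Nat.card (fixedSub φ (A : Set H)))
    {U : Subgroup V} (hU : U ≠ ⊤) (hinv : ∀ h : H, ∀ u ∈ U, φ h u ∈ U)
    (hCU : fixedSub φ (A : Set H) ≤ U) (hmove : ∀ (h : H) (v : V), delta φ h v ∈ U) : A = ⊥ := by
  refine no_offender_smaller hbelow hn h3 hcore ⊤ (fun u => Subtype.ext (hV u)) ?_
    (restrictHom φ ⊤ U fun h _ => hinv h) (fun x hx => Subtype.ext (hφ (MulEquiv.ext fun v => ?_)))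
    le_top hA ?_
  · simpa using H61.card_lt_of_lt (lt_top_iff_ne_top.2 hU)
  · have hfix : φ (x : H) (delta φ (x : H) v) = delta φ (x : H) v :=
      congrArg Subtype.val (DFunLike.congr_fun hx (⟨_, hmove x v⟩ : U))
    show φ ((x : H) * x) v = φ 1 v
    rw [map_one, MulAut.one_apply, ← div_eq_one, ← delta_apply, delta_mul, hfix, hV]
  · set C := fixedSub φ (A : Set H) with hC
    have hle : C.subgroupOf U ≤
        fixedSub (restrictHom φ ⊤ U fun h _ => hinv h) (A.subgroupOf ⊤ : Set (⊤ : Subgroup H)) :=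
      fun u hu a ha => Subtype.ext
        (Subgroup.mem_subgroupOf.1 hu (a : H) (Subgroup.mem_subgroupOf.1 ha))
    calc Nat.card U ≤ Nat.card V := Subgroup.card_le_card_group U
      _ ≤ Nat.card A * Nat.card C := hoff
      _ = Nat.card A * Nat.card (C.subgroupOf U) := by
        rw [Nat.card_congr (Subgroup.subgroupOfEquivOfLe hCU).toEquiv]
      _ ≤ _ := Nat.mul_le_mul_left _ (Subgroup.card_le_of_le hle)

omit [Finite H] [Finite V] in
/-- The fixed points of a subgroup in the restriction to a subgroup. -/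
theorem fixedSub_comp (φ : H →* MulAut V) (G₀ : Subgroup H) (B : Subgroup G₀) :
    fixedSub (φ.comp G₀.subtype) (B : Set G₀) = fixedSub φ (B.map G₀.subtype : Set H) := by
  ext v
  exact ⟨fun hv => by rintro _ ⟨b, hb, rfl⟩; exact hv b hb, fun hv b hb => hv _ ⟨b, hb, rfl⟩⟩

/-- The induction step. -/
theorem offender_eq_bot_step {n : ℕ} (hbelow : Below.{u} n) (hn : Nat.card H + Nat.card V ≤ n)
    (φ : H →* MulAut V) (hφ : Function.Injective φ) (hV : ∀ v : V, v * v = 1)
    (h3 : ¬ Cfsg.Involves (Equiv.Perm (Fin 3)) H) (hcore : Cfsg.pCore 2 H = ⊥)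
    (A₀ : Subgroup H) (hA₀ : ∀ a ∈ A₀, a * a = 1)
    (hoff₀ : Nat.card V ≤ Nat.card A₀ * Nat.card (fixedSub φ (A₀ : Set H))) : A₀ = ⊥ := by
  classical
  haveI : Fact (Nat.Prime 2) := ⟨Nat.prime_two⟩
  by_contra hA₀ne
  -- the least offenders
  obtain ⟨Am, ⟨hAm, hAmne, hAmoff⟩, hAmmin⟩ := Set.exists_min_image
    {A : Subgroup H | (∀ a ∈ A, a * a = 1) ∧ A ≠ ⊥ ∧
      Nat.card V ≤ Nat.card A * Nat.card (fixedSub φ (A : Set H))}
    (fun A => Nat.card A) (Set.toFinite _) ⟨A₀, hA₀, hA₀ne, hoff₀⟩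
  set k := Nat.card Am with hk
  set 𝒳 : Set (Subgroup H) := {A | (∀ a ∈ A, a * a = 1) ∧ A ≠ ⊥ ∧
    Nat.card V ≤ Nat.card A * Nat.card (fixedSub φ (A : Set H)) ∧ Nat.card A = k} with h𝒳
  have hmin : ∀ B : Subgroup H, (∀ b ∈ B, b * b = 1) → B ≠ ⊥ → Nat.card B < k →
      Nat.card B * Nat.card (fixedSub φ (B : Set H)) < Nat.card V := fun B h1 h2 hlt => by
    by_contra hle
    exact absurd (hAmmin B ⟨h1, h2, not_lt.1 hle⟩) (not_le_of_gt hlt)
  have htopfix : fixedSub φ ((⊥ : Subgroup H) : Set H) = ⊤ := top_unique fun v _ s hs => by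
    rw [SetLike.mem_coe, Subgroup.mem_bot] at hs
    rw [hs, map_one, MulAut.one_apply]
  have hbest : ∀ A ∈ 𝒳, Best φ A := by
    rintro A ⟨h1, h2, hoff, hc⟩
    refine ⟨h1, fun B hB => ?_⟩
    by_cases hB0 : B = ⊥
    · rw [hB0, Subgroup.card_bot, one_mul, htopfix, Subgroup.card_top]; exact hoff
    by_cases hBA : B = A
    · rw [hBA]
    exact (hmin B (fun b hb => h1 b (hB hb)) hB0
      (hc ▸ H61.card_lt_of_lt (lt_of_le_of_ne hB hBA))).le.trans hoff
  have hquad : ∀ A ∈ 𝒳, ∀ a ∈ A, ∀ v : V, delta φ a v ∈ fixedSub φ (A : Set H) := by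
    rintro A hA
    obtain ⟨h1, h2, hoff, hc⟩ := hA
    refine H69.SFour.quadratic_of_minimal φ hV (hbest A ⟨h1, h2, hoff, hc⟩) fun D hD hDbest hD0 => ?_
    by_contra hne
    have h4 := hDbest.2 ⊥ bot_le
    rw [Subgroup.card_bot, one_mul, htopfix, Subgroup.card_top] at h4
    exact absurd (hmin D (fun b hb => h1 b (hD hb)) hD0
      (hc ▸ H61.card_lt_of_lt (lt_of_le_of_ne hD hne))) (not_lt_of_ge h4)
  have hconj : ∀ A ∈ 𝒳, ∀ x : H, cj x A ∈ 𝒳 := by
    rintro A ⟨h1, h2, hoff, hc⟩ x
    refine ⟨?_, fun e => h2 ((Subgroup.map_eq_bot_iff_of_injective _ (MulAut.conj x).injective).1 e),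
      ?_, by rw [card_cj, hc]⟩
    · rintro _ ⟨a, ha, rfl⟩
      rw [← map_mul, h1 a ha, map_one]
    · rw [card_cj, H69.SFour.card_fixedSub_cj]; exact hoff
  have h2X : ∀ A ∈ 𝒳, IsPGroup 2 A := fun A hA => (hbest A hA).isPGroup
  have hAmX : Am ∈ 𝒳 := ⟨hAm, hAmne, hAmoff, rfl⟩
  obtain ⟨S, hS⟩ := (h2X Am hAmX).exists_le_sylow
  set D := msup 𝒳 (S : Subgroup H) with hD
  -- the fixed subgroup `W`
  have hfixD : ∀ x ∈ Subgroup.normalizer (D : Set H), ∀ v ∈ fixedSub φ (D : Set H),
      φ x v ∈ fixedSub φ (D : Set H) := by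
    intro x hx v hv d hd
    have h1 : x⁻¹ * d * x ∈ D := by
      have := (Subgroup.mem_normalizer_iff.1 (inv_mem hx) d).1 hd
      rwa [inv_inv] at this
    rw [← MulAut.mul_apply, ← map_mul, show d * x = x * (x⁻¹ * d * x) by group, map_mul,
      MulAut.mul_apply, hv _ h1]
  have hFD : fixedSub φ (D : Set H) ≠ ⊥ := by
    intro e
    obtain ⟨a, ha, ha1⟩ := Am.bot_or_exists_ne_one.resolve_left hAmne
    obtain ⟨w, hw⟩ : ∃ w : V, w ≠ 1 := by
      by_contra h
      push Not at h
      exact ha1 (hφ (MulEquiv.ext fun v => by rw [map_one, MulAut.one_apply, h v, map_one]))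
    letI : MulAction (S : Subgroup H) V := MulAction.compHom _ (φ.comp (S : Subgroup H).subtype)
    have hdvd : 2 ∣ Nat.card V := by
      rw [← orderOf_eq_prime (x := w) (p := 2) (by rw [pow_two]; exact hV w) hw]
      exact orderOf_dvd_natCard w
    have hone : (1 : V) ∈ MulAction.fixedPoints (S : Subgroup H) V :=
      fun q => map_one ((φ q).toMonoidHom)
    obtain ⟨u, hu, hne⟩ :=
      S.2.exists_fixed_point_of_prime_dvd_card_of_fixed_point _ hdvd hone
    have hu' : u ∈ fixedSub φ (D : Set H) := fun d hd => hu ⟨d, msup_le _ hd⟩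
    rw [e, Subgroup.mem_bot] at hu'
    exact hne hu'.symm
  obtain ⟨W, ⟨hWne, hWD, hWinv⟩, hWmin⟩ := Set.Finite.exists_minimal
    (s := {W : Subgroup V | W ≠ ⊥ ∧ W ≤ fixedSub φ (D : Set H) ∧
      ∀ x ∈ Subgroup.normalizer (D : Set H), ∀ w ∈ W, φ x w ∈ W}) (Set.toFinite _)
    ⟨_, hFD, le_rfl, hfixD⟩
  set Y := normSub φ W with hY
  have hNY : Subgroup.normalizer (D : Set H) ≤ Y := fun x hx => mem_normSub (hWinv x hx)
  have hSY : (S : Subgroup H) ≤ Y :=
    Subgroup.le_normalizer.trans ((normalizer_le_msup hconj _).trans hNY)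
  -- the members of `Y` fix `W`
  have hfixW : ∀ A ∈ 𝒳, A ≤ Y → W ≤ fixedSub φ (A : Set H) := by
    intro A hA hAY w hw a ha
    obtain ⟨m, hm, hmle⟩ := H61.exists_cj_le (H61.sylowIn_of_le S hSY) hAY (h2X A hA)
    have h1 := hWD (mem_of_mem_normSub hm hw) _ (le_msup (hconj A hA m) hmle (conj_mem_cj ha))
    rw [map_mul, map_mul, MulAut.mul_apply, MulAut.mul_apply, map_inv, MulAut.inv_apply_self] at h1
    exact (φ m).injective h1
  have hYne : Y ≠ ⊤ := by
    intro e
    set L : Subgroup H := sSup 𝒳 with hL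
    haveI : L.Normal := ⟨fun x hx g => by
      have hle : L ≤ L.comap (MulAut.conj g).toMonoidHom := sSup_le fun A hA =>
        Subgroup.map_le_iff_le_comap.1 (le_sSup (hconj A hA g) : cj g A ≤ L)
      exact hle hx⟩
    refine hAmne (no_offender_of_fixed hbelow hn hφ hV h3 hcore L (le_sSup hAmX) hAm hAmoff hWne
      (fun h w hw => mem_of_mem_normSub (e ▸ Subgroup.mem_top h : h ∈ Y) hw) fun w hw x hx => ?_)
    have hle : L ≤ stabSub φ (Subgroup.zpowers w) := sSup_le fun A hA a ha v hv => by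
      obtain ⟨i, rfl⟩ := hv
      rw [map_zpow, hfixW A hA (e.symm ▸ le_top) hw a ha]
    exact hle hx w (Subgroup.mem_zpowers w)
  obtain ⟨A, hA, g, hAY, hgY, hgG, huniq⟩ := exists_config hconj h2X S Y hNY hYne
  obtain ⟨hA1, hA2, hAoff, hAc⟩ := hA
  set G₀ := A ⊔ cj g A with hG₀
  -- the local situation
  set A' := A.subgroupOf G₀ with hA'
  have hA'map : A'.map G₀.subtype = A := Subgroup.map_subgroupOf_eq_of_le le_sup_left
  let g' : G₀ := ⟨g, hgG⟩
  have hcjA' : (cj g' A').map G₀.subtype = cj g A := by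
    conv_rhs => rw [← hA'map]
    rw [cj, cj, Subgroup.map_map, Subgroup.map_map]
    rfl
  have ctx : Ctx (φ.comp G₀.subtype) A' g' k W (Y.subgroupOf G₀) :=
    { inj := hφ.comp G₀.subtype_injective
      sq := hV
      s3 := fun h => h3 (H83.involves_of_subgroup h)
      invol := fun a ha => Subtype.ext (hA1 a (Subgroup.mem_subgroupOf.1 ha))
      card := by rw [Nat.card_congr (Subgroup.subgroupOfEquivOfLe le_sup_left).toEquiv, hAc]
      quad := fun a ha v => by
        rw [fixedSub_comp, hA'map]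
        exact hquad A ⟨hA1, hA2, hAoff, hAc⟩ a (Subgroup.mem_subgroupOf.1 ha) v
      off := by rw [fixedSub_comp, hA'map, ← hAc]; exact hAoff
      min := fun B hB hB0 hBlt => by
        rw [fixedSub_comp, ← Subgroup.card_map_of_injective G₀.subtype_injective (K := B)]
        refine hmin _ ?_ (fun e => hB0 ?_) ?_
        · rintro _ ⟨b, hb, rfl⟩
          rw [← map_mul, hB b hb, map_one]
        · exact (Subgroup.map_eq_bot_iff_of_injective _ G₀.subtype_injective).1 e
        · rwa [Subgroup.card_map_of_injective G₀.subtype_injective]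
      gen := Subgroup.map_injective G₀.subtype_injective (by
        rw [Subgroup.map_sup, hA'map, hcjA', ← MonoidHom.range_eq_map, Subgroup.range_subtype])
      le_M := Subgroup.comap_mono hAY
      not_le_M := fun h => hgY (by
        rw [← hcjA']
        exact (Subgroup.map_mono h).trans (Subgroup.map_comap_le _ _))
      uniq := fun Z hZ hZne x hx => by
        have h1 : Z.map G₀.subtype ≤ Y := huniq _ (hA'map ▸ Subgroup.map_mono hZ)
          (Subgroup.map_subtype_le _) fun e => hZne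
          (Subgroup.map_injective G₀.subtype_injective (by
            rw [e, ← MonoidHom.range_eq_map, Subgroup.range_subtype]))
        exact Subgroup.mem_subgroupOf.2 (h1 ⟨x, hx, rfl⟩)
      inv_W := fun m hm w hw => mem_of_mem_normSub (Subgroup.mem_subgroupOf.1 hm) hw
      fix_W := by rw [fixedSub_comp, hA'map]; exact hfixW A ⟨hA1, hA2, hAoff, hAc⟩ hAY
      W_ne := hWne }
  by_cases hfull : G₀ = ⊤
  · -- the base case
    have huniv : ∀ v : V, v ∈ fixedSub φ (Set.univ : Set H) ↔
        v ∈ fixedSub (φ.comp G₀.subtype) (Set.univ : Set G₀) := fun v =>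
      ⟨fun hv x _ => hv (x : H) trivial,
        fun hv x _ => hv ⟨x, hfull.symm ▸ Subgroup.mem_top x⟩ trivial⟩
    have hI : fixedSub φ (Set.univ : Set H) = ⊥ := by
      by_contra hne
      refine hA2 (no_offender_of_fixed hbelow hn hφ hV h3 hcore ⊤ le_top hA1 hAoff hne
        (fun h v hv x _ => ?_) fun v hv x _ => hv x trivial)
      rw [hv h trivial, hv x trivial]
    refine Ctx.base_false ctx ?_ ?_
    · rw [ctx.inf_fixed]
      exact (Subgroup.eq_bot_iff_forall _).2 fun v hv => Subgroup.mem_bot.1 (hI ▸ (huniv v).2 hv)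
    · by_contra hne
      set U := fixedSub (φ.comp G₀.subtype) (A' : Set G₀) ⊔
        fixedSub (φ.comp G₀.subtype) (cj g' A' : Set G₀) with hU
      have hinvU : ∀ h : H, ∀ u ∈ U, φ h u ∈ U := fun h u hu =>
        ctx.isSub_sup.inv ⟨h, hfull.symm ▸ Subgroup.mem_top h⟩ u hu
      refine hA2 (no_offender_of_moved hbelow hn hφ hV h3 hcore hA1 hAoff hne hinvU ?_ fun h v => ?_)
      · intro v hv
        refine Subgroup.mem_sup_left (?_ : v ∈ fixedSub (φ.comp G₀.subtype) (A' : Set G₀))
        rw [fixedSub_comp, hA'map]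
        exact hv
      · let K : Subgroup H :=
          { carrier := {x | ∀ v, delta φ x v ∈ U}
            one_mem' := fun v => by
              rw [delta_apply, map_one, MulAut.one_apply, div_self']; exact one_mem _
            mul_mem' := fun {a b} ha hb v => by
              rw [delta_mul]; exact mul_mem (hinvU a _ (hb v)) (ha v)
            inv_mem' := fun {a} ha v => by
              have h1 := ha (φ a⁻¹ v)
              rw [delta_apply, map_inv, MulAut.apply_inv_self] at h1
              rw [delta_apply, map_inv]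
              simpa using inv_mem h1 }
        have hle : G₀ ≤ K := sup_le
          (fun a ha v => Subgroup.mem_sup_left
            (ctx.quad ⟨a, (le_sup_left : A ≤ G₀) ha⟩ (Subgroup.mem_subgroupOf.2 ha) v))
          (fun t ht v => by
            rw [← hcjA'] at ht
            obtain ⟨t', ht', rfl⟩ := ht
            exact Subgroup.mem_sup_right (ctx.quad_cj g' ht' v))
        exact hle (hfull.symm ▸ Subgroup.mem_top h) v
  -- the local case
  have hlt : Nat.card G₀ + Nat.card V < n := by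
    have := H61.card_lt_of_lt (lt_top_iff_ne_top.2 hfull)
    rw [Subgroup.card_top] at this
    omega
  rcases ctx.exists_offender n hbelow hlt with hW' | ⟨F, hFM, hFsq, ⟨f, hf, w, hw, hmove⟩, hFoff⟩
  · refine hgY fun t ht => mem_normSub fun w hw => ?_
    rw [← hcjA'] at ht
    obtain ⟨t', ht', rfl⟩ := ht
    have h1 : φ (t' : H) w = w := hW' hw t' ht'
    exact h1.symm ▸ hw
  set F₁ := F.map G₀.subtype with hF₁
  have hF₁Y : F₁ ≤ Y := by
    rintro _ ⟨x, hx, rfl⟩
    exact hFM hx
  set ψ := restrictHom φ Y W (fun y hy w hw => mem_of_mem_normSub hy hw) with hψ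
  set FX := (F₁.subgroupOf Y).map ψ.rangeRestrict with hFX
  have hXirr : ∀ X : Subgroup W, (∀ y : Y, ∀ u ∈ X, ψ y u ∈ X) → X = ⊥ ∨ X = ⊤ := by
    intro X hX
    by_cases e : X = ⊥
    · exact Or.inl e
    refine Or.inr (top_unique fun u _ => ?_)
    have hle := hWmin ⟨fun e' => e ((Subgroup.map_eq_bot_iff_of_injective _ W.subtype_injective).1 e'),
      (Subgroup.map_subtype_le X).trans hWD, fun x hx v hv => by
        obtain ⟨v', hv', rfl⟩ := hv
        exact ⟨_, hX ⟨x, hNY hx⟩ v' hv', rfl⟩⟩ (Subgroup.map_subtype_le X)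
    obtain ⟨u', hu', e'⟩ := hle u.2
    rwa [← W.subtype_injective e']
  have hWsq : ∀ u : W, u * u = 1 := fun u => Subtype.ext (hV u)
  have hXn : Nat.card ψ.range + Nat.card W < n := by
    have h1 := Nat.card_le_card_of_surjective _ ψ.rangeRestrict_surjective
    have h2 := Subgroup.card_le_card_group W
    have h3 := H61.card_lt_of_lt (lt_top_iff_ne_top.2 hYne)
    rw [Subgroup.card_top] at h3
    omega
  have hFX2 : ∀ x ∈ FX, x * x = 1 := by
    rintro _ ⟨y, hy, rfl⟩
    obtain ⟨x, hx, hxy⟩ := Subgroup.mem_subgroupOf.1 hy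
    refine Subtype.ext (MulEquiv.ext fun u => Subtype.ext ?_)
    show φ (y : H) (φ (y : H) (u : V)) = u
    have hh : φ ((x : H) * x) (u : V) = u := hFsq x hx u u.2
    rw [map_mul, MulAut.mul_apply] at hh
    rw [show (y : H) = x from hxy.symm]
    exact hh
  have hfixX : Nat.card (W ⊓ fixedSub (φ.comp G₀.subtype) (F : Set G₀) : Subgroup V) ≤
      Nat.card (fixedSub ψ.range.subtype (FX : Set ψ.range)) := by
    rw [← Nat.card_congr (Subgroup.subgroupOfEquivOfLe
      (inf_le_left : W ⊓ fixedSub (φ.comp G₀.subtype) (F : Set G₀) ≤ W)).toEquiv]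
    refine Subgroup.card_le_of_le fun u hu => ?_
    rintro _ ⟨y, hy, rfl⟩
    obtain ⟨x, hx, hxy⟩ := Subgroup.mem_subgroupOf.1 hy
    refine Subtype.ext ?_
    show φ (y : H) (u : V) = u
    rw [show (y : H) = x from hxy.symm]
    exact (Subgroup.mem_subgroupOf.1 hu).2 x hx
  have hker : (F₁.subgroupOf Y ⊓ ψ.rangeRestrict.ker).map Y.subtype =
      (F ⊓ stabSub (φ.comp G₀.subtype) W).map G₀.subtype := by
    ext z
    constructor
    · rintro ⟨y, ⟨hy, hk'⟩, rfl⟩
      obtain ⟨x, hx, hxy⟩ := Subgroup.mem_subgroupOf.1 hy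
      refine ⟨x, ⟨hx, fun w hw => ?_⟩, hxy⟩
      have h := congrArg Subtype.val (DFunLike.congr_fun
        (congrArg Subtype.val (MonoidHom.mem_ker.1 hk')) (⟨w, hw⟩ : W))
      show φ (x : H) w = w
      rw [show (x : H) = y from hxy]
      exact h
    · rintro ⟨x, ⟨hx, hxs⟩, rfl⟩
      refine ⟨⟨x, hF₁Y ⟨x, hx, rfl⟩⟩, ⟨Subgroup.mem_subgroupOf.2 ⟨x, hx, rfl⟩, ?_⟩, rfl⟩
      exact MonoidHom.mem_ker.2 (Subtype.ext (MulEquiv.ext fun u => Subtype.ext (hxs u u.2)))
  have hFXcard : Nat.card FX * Nat.card (F ⊓ stabSub (φ.comp G₀.subtype) W : Subgroup G₀) =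
      Nat.card F := by
    rw [← Subgroup.card_map_of_injective G₀.subtype_injective
      (K := F ⊓ stabSub (φ.comp G₀.subtype) W), ← hker,
      Subgroup.card_map_of_injective Y.subtype_injective, hFX,
      H69.SFour.card_map_mul_card_inf_ker, Nat.card_congr (Subgroup.subgroupOfEquivOfLe hF₁Y).toEquiv,
      hF₁, Subgroup.card_map_of_injective G₀.subtype_injective]
  have hoffX : Nat.card W ≤ Nat.card FX * Nat.card (fixedSub ψ.range.subtype (FX : Set ψ.range)) := by
    refine le_trans ?_ (Nat.mul_le_mul_left _ hfixX)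
    refine Nat.le_of_mul_le_mul_right ?_
      (Nat.card_pos : 0 < Nat.card (F ⊓ stabSub (φ.comp G₀.subtype) W : Subgroup G₀))
    calc _ ≤ Nat.card F * Nat.card (W ⊓ fixedSub (φ.comp G₀.subtype) (F : Set G₀) : Subgroup V) :=
          hFoff
      _ = _ := by rw [← hFXcard]; ring
  have hFX0 := hbelow ψ.range W ψ.range.subtype hXn Subtype.val_injective hWsq
    (fun h => h3 (H83.involves_of_subgroup (H83.involves_of_surjective_hom _
      ψ.rangeRestrict_surjective h)))
    (pCore_range_eq_bot ψ hWsq hXirr) FX (isElementaryAbelian_of_invol hFX2) hoffX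
  refine hmove ?_
  have hmem : ψ.rangeRestrict ⟨(f : H), hF₁Y ⟨f, hf, rfl⟩⟩ ∈ FX :=
    ⟨_, Subgroup.mem_subgroupOf.2 ⟨f, hf, rfl⟩, rfl⟩
  rw [hFX0, Subgroup.mem_bot] at hmem
  exact congrArg Subtype.val (DFunLike.congr_fun (congrArg Subtype.val hmem) (⟨w, hw⟩ : W))

/-- **No offenders.** An `S₃`-free group without normal 2-subgroups acting faithfully on an elementary
abelian 2-group has no nontrivial offender. -/
theorem no_offender : H51.SFourFree.NoOffender.{u} := by
  have key : ∀ n : ℕ, Below.{u} n := by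
    intro n
    induction n using Nat.strong_induction_on with
    | _ n IH =>
    intro H V _ _ _ _ φ hlt hφ hV h3 hcore A hA hoff
    exact offender_eq_bot_step (IH _ hlt) le_rfl φ hφ hV h3 hcore A
      (fun a ha => invol_of_isElementaryAbelian hA ha) hoff
  intro H V _ _ _ _ φ hφ hV h3 hcore A hA hoff
  exact key _ H V φ (Nat.lt_succ_self _) hφ hV h3 hcore A hA hoff

end Cfsg.Agent.H96.Offender
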