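import Cfsg.Agent.H69.SFour.Best
import Mathlib

/-!
Groups of homomorphisms on a finite abelian group: restriction to the subgroup generated by the
images of a family of endomorphisms under which the group is invariant, and the orders of invariant
groups of homomorphisms on a sum of isomorphic irreducible subgroups.
-/

set_option autoImplicit false
set_option linter.style.haveILetI false

set_option maxHeartbeats 80000
set_option synthInstance.maxHeartbeats 20000

namespace Cfsg.Agent.H96.Offender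

section Pairing

variable {U Z : Type*} [CommGroup U] [CommGroup Z]

/-- The common kernel of a group of homomorphisms. -/
def annHom (F : Subgroup (U →* Z)) : Subgroup U where
  carrier := {u | ∀ χ ∈ F, χ u = 1}
  one_mem' := fun χ _ => map_one χ
  mul_mem' := fun ha hb χ hχ => by rw [map_mul, ha χ hχ, hb χ hχ, one_mul]
  inv_mem' := fun ha χ hχ => by rw [map_inv, ha χ hχ, inv_one]

theorem mem_annHom {F : Subgroup (U →* Z)} {u : U} : u ∈ annHom F ↔ ∀ χ ∈ F, χ u = 1 := Iff.rfl

/-- The homomorphisms that vanish on a subgroup. -/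
def annIn (W : Subgroup U) : Subgroup (U →* Z) where
  carrier := {χ | ∀ w ∈ W, χ w = 1}
  one_mem' := fun w _ => MonoidHom.one_apply w
  mul_mem' := fun ha hb w hw => by rw [MonoidHom.mul_apply, ha w hw, hb w hw, one_mul]
  inv_mem' := fun ha w hw => by rw [MonoidHom.inv_apply, ha w hw, inv_one]

theorem mem_annIn {W : Subgroup U} {χ : U →* Z} : χ ∈ annIn W ↔ ∀ w ∈ W, χ w = 1 := Iff.rfl

/-- Composition with an endomorphism. -/
def compEnd (f : U →* U) : (U →* Z) →* (U →* Z) where
  toFun χ := χ.comp f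
  map_one' := MonoidHom.one_comp f
  map_mul' a b := MonoidHom.mul_comp a b f

theorem compEnd_apply (f : U →* U) (χ : U →* Z) (u : U) : compEnd f χ u = χ (f u) := rfl

theorem finite_hom [Finite U] [Finite Z] : Finite (U →* Z) :=
  Finite.of_injective (fun f : U →* Z => (f : U → Z)) DFunLike.coe_injective

/-- If every nontrivial subgroup of `R` is smaller than the index of its kernel, then `R` restricts
to the images of the endomorphisms in `P` with fewer homomorphisms than points. -/
theorem relIndex_annIn_lt [Finite U] [Finite Z] (R : Subgroup (U →* Z)) (P : Set (U →* U))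
    (hR : ∀ χ ∈ R, ∀ f ∈ P, χ.comp f ∈ R) (N : Subgroup U) (hN : ∀ f ∈ P, f.range ≤ N)
    (hN' : N ≤ ⨆ f ∈ P, f.range) (hsep : annHom R = ⊥) (hN0 : N ≠ ⊥)
    (hstrict : ∀ F ≤ R, F ≠ ⊥ → Nat.card F < (annHom F).index) :
    (annIn N).relIndex R < Nat.card N := by
  haveI : Finite (U →* Z) := finite_hom
  have main : ∀ Y ≤ R, (annIn N).relIndex Y ≤ (annHom Y).relIndex N ∧
      (¬ Y ≤ annIn N → (annIn N).relIndex Y < (annHom Y).relIndex N) := by
    intro Y
    induction hd : Nat.card Y using Nat.strong_induction_on generalizing Y with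
    | _ d IH =>
    intro hY
    subst hd
    by_cases hYN : Y ≤ annIn N
    · refine ⟨?_, fun h => absurd hYN h⟩
      rw [Subgroup.relIndex_eq_one.2 hYN]
      exact Nat.one_le_iff_ne_zero.2 Subgroup.index_ne_zero_of_finite
    obtain ⟨f, hf, χ, hχ, hχf⟩ : ∃ f ∈ P, ∃ χ ∈ Y, χ.comp f ≠ 1 := by
      by_contra h
      push Not at h
      refine hYN fun χ hχ w hw => ?_
      have hle : (⨆ f ∈ P, f.range) ≤ χ.ker := iSup₂_le fun f hf => by
        rintro _ ⟨u, rfl⟩
        exact DFunLike.congr_fun (h f hf χ hχ) u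
      exact hle (hN' hw)
    set F := Y.map (compEnd f) with hF
    set Q := Y ⊓ (compEnd (Z := Z) f).ker with hQ
    have hcard : Nat.card F * Nat.card Q = Nat.card Y :=
      H69.SFour.card_map_mul_card_inf_ker _ _
    have hFR : F ≤ R := by
      rintro _ ⟨ψ, hψ, rfl⟩
      exact hR ψ (hY hψ) f hf
    have hF0 : F ≠ ⊥ := fun e => hχf (by
      have : compEnd f χ ∈ F := Subgroup.mem_map_of_mem _ hχ
      rw [e] at this
      exact Subgroup.mem_bot.1 this)
    have hQlt : Nat.card Q < Nat.card Y := by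
      rw [← hcard]
      have : 1 < Nat.card F := (Subgroup.one_lt_card_iff_ne_bot F).2 hF0
      exact lt_mul_of_one_lt_left Nat.card_pos this
    have hQle := (IH _ hQlt Q rfl (inf_le_left.trans hY)).1
    have hinf : Q ⊓ annIn N = Y ⊓ annIn N := by
      refine le_antisymm (inf_le_inf_right _ inf_le_left) (le_inf (le_inf inf_le_left ?_) inf_le_right)
      intro ψ hψ
      rw [MonoidHom.mem_ker]
      ext u
      rw [compEnd_apply, MonoidHom.one_apply]
      exact hψ.2 _ (hN f hf ⟨u, rfl⟩)
    have hl : (annIn N).relIndex Y = Nat.card F * (annIn N).relIndex Q := by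
      have h1 := Subgroup.relIndex_mul_relIndex (⊥ : Subgroup (U →* Z)) (annIn N ⊓ Y) Y bot_le
        inf_le_right
      have h2 := Subgroup.relIndex_mul_relIndex (⊥ : Subgroup (U →* Z)) (annIn N ⊓ Q) Q bot_le
        inf_le_right
      rw [Subgroup.relIndex_bot_left, Subgroup.relIndex_bot_left, Subgroup.inf_relIndex_right] at h1 h2
      rw [inf_comm] at hinf
      rw [show annIn N ⊓ Q = annIn N ⊓ Y by rw [hinf, inf_comm]] at h2
      rw [← hcard, ← h2] at h1
      refine Nat.eq_of_mul_eq_mul_left (Nat.card_pos : 0 < Nat.card (annIn N ⊓ Y : Subgroup (U →* Z)))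
        ?_
      rw [h1]; ring
    have hann : annHom F = (annHom Y).comap f := by
      ext u
      rw [Subgroup.mem_comap, mem_annHom, mem_annHom]
      exact ⟨fun h ψ hψ => h _ (Subgroup.mem_map_of_mem (compEnd f) hψ),
        fun h => by rintro _ ⟨ψ, hψ, rfl⟩; exact h ψ hψ⟩
    have hrange : f.range ≤ N ⊓ annHom Q := le_inf (hN f hf) (by
      rintro _ ⟨u, rfl⟩ ψ hψ
      exact DFunLike.congr_fun (MonoidHom.mem_ker.1 hψ.2) u)
    have hr : (annHom Y).relIndex N =
        (annHom Y).relIndex (N ⊓ annHom Q) * (annHom Q).relIndex N := by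
      have hYQ : annHom Y ≤ annHom Q := fun u hu ψ hψ => hu ψ hψ.1
      have h1 := Subgroup.relIndex_mul_relIndex (annHom Y ⊓ N) (annHom Q ⊓ N) N
        (inf_le_inf_right _ hYQ) inf_le_right
      rw [Subgroup.inf_relIndex_right, Subgroup.inf_relIndex_right] at h1
      rw [← h1, inf_comm (annHom Q) N, ← Subgroup.inf_relIndex_right (annHom Y) (N ⊓ annHom Q)]
      congr 2
      rw [← inf_assoc]
      exact le_antisymm (le_inf le_rfl (inf_le_left.trans hYQ)) inf_le_left
    have hlo : Nat.card F < (annHom Y).relIndex (N ⊓ annHom Q) := by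
      calc Nat.card F < (annHom F).index := hstrict F hFR hF0
        _ = (annHom Y).relIndex f.range := by rw [hann, Subgroup.index_comap]
        _ ≤ _ := Subgroup.relIndex_le_of_le_right hrange Subgroup.index_ne_zero_of_finite
    have hlt : (annIn N).relIndex Y < (annHom Y).relIndex N := by
      rw [hl, hr]
      have hpos : 0 < (annIn N).relIndex Q :=
        Nat.pos_of_ne_zero Subgroup.index_ne_zero_of_finite
      exact lt_of_lt_of_le ((Nat.mul_lt_mul_right hpos).2 hlo) (Nat.mul_le_mul_left _ hQle)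
    exact ⟨hlt.le, fun _ => hlt⟩
  have h := (main R le_rfl).2 ?_
  · rwa [hsep, Subgroup.relIndex_bot_left] at h
  · intro hle
    refine hN0 (le_bot_iff.1 fun w hw => ?_)
    rw [← hsep]
    exact fun χ hχ => hle hχ w hw

/-- A least subgroup not smaller than the index of its kernel keeps this property on every
subgroup it does not annihilate. -/
theorem relIndex_annHom_le [Finite U] [Finite Z] (F : Subgroup (U →* Z))
    (hF : (annHom F).index ≤ Nat.card F)
    (hmin : ∀ F' ≤ F, F' ≠ ⊥ → F' ≠ F → Nat.card F' < (annHom F').index)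
    (W : Subgroup U) (hW : ¬ W ≤ annHom F) :
    (annHom F).relIndex W ≤ (annIn W).relIndex F := by
  haveI : Finite (U →* Z) := finite_hom
  by_contra hlt
  push Not at hlt
  set F₁ := F ⊓ annIn W with hF₁
  have hc : (annIn W).relIndex F * Nat.card F₁ = Nat.card F := by
    have h1 := Subgroup.relIndex_mul_relIndex (⊥ : Subgroup (U →* Z)) (annIn W ⊓ F) F bot_le
      inf_le_right
    rw [Subgroup.relIndex_bot_left, Subgroup.relIndex_bot_left, Subgroup.inf_relIndex_right] at h1
    rw [hF₁, inf_comm, mul_comm]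
    exact h1
  have hidx : (annHom F).relIndex W * (annHom F ⊔ W).index = (annHom F).index := by
    rw [← Subgroup.relIndex_sup_left (H := W) (K := annHom F)]
    exact Subgroup.relIndex_mul_index le_sup_left
  have hle : (annHom F₁).index ≤ (annHom F ⊔ W).index := by
    refine Nat.le_of_dvd (Nat.pos_of_ne_zero Subgroup.index_ne_zero_of_finite)
      (Subgroup.index_dvd_of_le (sup_le (fun u hu ψ hψ => hu ψ hψ.1) fun w hw ψ hψ => hψ.2 w hw))
  have hpos : 0 < (annHom F ⊔ W).index := Nat.pos_of_ne_zero Subgroup.index_ne_zero_of_finite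
  have hne : F₁ ≠ F := fun e => hW fun w hw ψ hψ => by
    rw [← e] at hψ
    exact hψ.2 w hw
  have hbot : F₁ ≠ ⊥ := fun e => by
    rw [e, Subgroup.card_bot, mul_one] at hc
    have : (annHom F).relIndex W ≤ (annHom F).index := by
      rw [← hidx]; exact Nat.le_mul_of_pos_right _ hpos
    omega
  have := hmin F₁ inf_le_left hbot hne
  have h2 : Nat.card F < (annHom F).relIndex W * (annHom F ⊔ W).index := by
    calc Nat.card F = (annIn W).relIndex F * Nat.card F₁ := hc.symm
      _ ≤ (annIn W).relIndex F * (annHom F ⊔ W).index := Nat.mul_le_mul_left _ (this.le.trans hle)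
      _ < _ := (Nat.mul_lt_mul_right hpos).2 hlt
  omega

end Pairing

section Power

variable {H U Z : Type*} [Group H] [CommGroup U] [CommGroup Z] [Finite U]

theorem card_dual (X : Type*) [CommGroup X] [Finite X] : Nat.card (X →* ℂˣ) = Nat.card X := by
  haveI : NeZero (Monoid.exponent X) := ⟨Monoid.exponent_ne_zero_of_finite⟩
  exact CommGroup.card_monoidHom_of_hasEnoughRootsOfUnity X ℂ

theorem finite_dual (X : Type*) [CommGroup X] [Finite X] : Finite (X →* ℂˣ) :=
  Nat.finite_of_card_ne_zero (by rw [card_dual]; exact Nat.card_pos.ne')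

/-- On a sum of irreducible subgroups of order `q`, the order of an invariant group of homomorphisms
is a power of `q`. -/
theorem card_invariant_pow (π : H →* MulAut U) (q : ℕ) (𝒯 : Set (Subgroup U))
    (hinv : ∀ T ∈ 𝒯, ∀ h : H, ∀ u ∈ T, π h u ∈ T)
    (hirr : ∀ T ∈ 𝒯, ∀ X ≤ T, (∀ h : H, ∀ u ∈ X, π h u ∈ X) → X = ⊥ ∨ X = T)
    (hcard : ∀ T ∈ 𝒯, Nat.card T = q) (hspan : (⊤ : Subgroup U) ≤ sSup 𝒯)
    (hsepZ : ∀ z : Z, z ≠ 1 → ∃ μ : Z →* ℂˣ, μ z ≠ 1) [Finite (U →* Z)]
    (P : Subgroup (U →* Z)) (hP : ∀ χ ∈ P, ∀ h : H, χ.comp (π h).toMonoidHom ∈ P) :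
    ∃ j : ℕ, Nat.card P = q ^ j := by
  induction hd : Nat.card P using Nat.strong_induction_on generalizing P with
  | _ d IH =>
  subst hd
  by_cases hP0 : P = ⊥
  · exact ⟨0, by rw [hP0, Subgroup.card_bot, pow_zero]⟩
  obtain ⟨T, hT, χ, hχ, u, hu, hne⟩ : ∃ T ∈ 𝒯, ∃ χ ∈ P, ∃ u ∈ T, χ u ≠ 1 := by
    by_contra h
    push Not at h
    refine hP0 ((Subgroup.eq_bot_iff_forall P).2 fun χ hχ => MonoidHom.ext fun u => ?_)
    have : sSup 𝒯 ≤ χ.ker := sSup_le fun T hT v hv => h T hT χ hχ v hv
    exact this (hspan (Subgroup.mem_top u))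
  obtain ⟨μ, hμ⟩ := hsepZ _ hne
  let Ψ : (U →* Z) →* (T →* ℂˣ) :=
    { toFun := fun ψ => μ.comp (ψ.comp T.subtype)
      map_one' := MonoidHom.ext fun v => map_one μ
      map_mul' := fun a b => MonoidHom.ext fun v => map_mul μ _ _ }
  have hΨ : ∀ ψ (v : T), Ψ ψ v = μ (ψ v) := fun _ _ => rfl
  haveI : Finite (T →* ℂˣ) := finite_dual T
  set I := P.map Ψ with hI
  set X : Subgroup U := (annHom I).map T.subtype with hX
  have hXinv : ∀ h : H, ∀ v ∈ X, π h v ∈ X := by
    rintro h _ ⟨v, hv, rfl⟩
    refine ⟨⟨π h v, hinv T hT h v v.2⟩, ?_, rfl⟩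
    rintro _ ⟨ψ, hψ, rfl⟩
    rw [hΨ]
    have := hv _ (Subgroup.mem_map_of_mem Ψ (hP ψ hψ h))
    rwa [hΨ] at this
  have hann : annHom I = ⊥ := by
    rcases hirr T hT X (Subgroup.map_subtype_le _) hXinv with e | e
    · exact (Subgroup.map_eq_bot_iff_of_injective _ T.subtype_injective).1 e
    · exfalso
      have : u ∈ X := e.symm ▸ hu
      obtain ⟨v, hv, hvu⟩ := this
      refine hμ ?_
      have h1 := hv _ (Subgroup.mem_map_of_mem Ψ hχ)
      rw [hΨ] at h1
      rw [← hvu]
      exact h1
  have hIcard : Nat.card I = q := by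
    rw [← hcard T hT]
    refine le_antisymm ?_ ?_
    · exact (Subgroup.card_le_card_group I).trans (card_dual T).le
    · haveI : Finite (I →* ℂˣ) := finite_dual I
      let ev : T → (I →* ℂˣ) := fun v =>
        { toFun := fun ψ => (ψ : T →* ℂˣ) v
          map_one' := rfl
          map_mul' := fun a b => rfl }
      have hev : Function.Injective ev := by
        intro v w e
        have : v / w ∈ annHom I := fun ψ hψ => by
          rw [map_div, show ψ v = ψ w from DFunLike.congr_fun e ⟨ψ, hψ⟩, div_self']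
        rw [hann, Subgroup.mem_bot, div_eq_one] at this
        exact this
      exact (Nat.card_le_card_of_injective ev hev).trans (card_dual I).le
  set K := P ⊓ Ψ.ker with hK
  have hsplit : Nat.card I * Nat.card K = Nat.card P := H69.SFour.card_map_mul_card_inf_ker _ _
  have hKinv : ∀ ψ ∈ K, ∀ h : H, ψ.comp (π h).toMonoidHom ∈ K := by
    refine fun ψ hψ h => ⟨hP ψ hψ.1 h, MonoidHom.ext fun v => ?_⟩
    rw [hΨ]
    have := DFunLike.congr_fun (MonoidHom.mem_ker.1 hψ.2) ⟨π h v, hinv T hT h v v.2⟩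
    rw [hΨ] at this
    exact this
  have h1 : 1 < q := by
    rw [← hIcard]
    refine (Subgroup.one_lt_card_iff_ne_bot I).2 fun e => hμ ?_
    have := Subgroup.mem_map_of_mem Ψ hχ
    rw [← hI, e, Subgroup.mem_bot] at this
    exact DFunLike.congr_fun this ⟨u, hu⟩
  obtain ⟨j, hj⟩ := IH _ (by rw [← hsplit, hIcard]; exact lt_mul_of_one_lt_left Nat.card_pos h1)
    K hKinv rfl
  exact ⟨j + 1, by rw [← hsplit, hIcard, hj, pow_succ']⟩

end Power

end Cfsg.Agent.H96.Offender
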