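import Cfsg.Agent.H96.Offender.Basic
import Mathlib

/-!
Invariant subgroups between the fixed points `I` of `H` and the product of the fixed points of `A`
and `A^g` split along these two fixed point groups.
-/

set_option autoImplicit false
set_option linter.style.haveILetI false
set_option maxHeartbeats 400000

namespace Cfsg.Agent.H96.Offender

open Cfsg.Agent.H83 (fixedSub delta delta_apply mem_fixedSub)
open Cfsg.Agent.H61 (cj cj_cj cj_one cj_mono card_cj mem_cj conj_mem_cj)
open Cfsg.Agent.H50.QuadraticOffender (stabMod mem_stabMod delta_mul card_sup_mul_card_inf)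

variable {H V : Type*} [Group H] [CommGroup V]

/-- An invariant subgroup above `I` inside the product of the two fixed point groups. -/
structure IsSub (φ : H →* MulAut V) (A : Subgroup H) (g : H) (N : Subgroup V) : Prop where
  inv : ∀ h : H, ∀ v ∈ N, φ h v ∈ N
  ge : fixedSub φ (Set.univ : Set H) ≤ N
  le : N ≤ fixedSub φ (A : Set H) ⊔ fixedSub φ (cj g A : Set H)

/-- The order of `(N ⊓ C_V(A)) / I`. -/
noncomputable def width (φ : H →* MulAut V) (A : Subgroup H) (N : Subgroup V) : ℕ :=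
  (fixedSub φ (Set.univ : Set H)).relIndex (N ⊓ fixedSub φ (A : Set H))

theorem univ_le_fixed (φ : H →* MulAut V) (S : Set H) :
    fixedSub φ (Set.univ : Set H) ≤ fixedSub φ S := fun _ hv s _ => hv s trivial

theorem delta_conj (φ : H →* MulAut V) (x a : H) (v : V) :
    delta φ (x * a * x⁻¹) v = φ x (delta φ a (φ x⁻¹ v)) := by
  rw [delta_apply, delta_apply, map_div, map_mul, map_mul, MulAut.mul_apply, MulAut.mul_apply]
  simp

theorem cj_top (x : H) : cj x (⊤ : Subgroup H) = ⊤ :=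
  top_unique fun z _ => ⟨x⁻¹ * z * x, trivial, show x * (x⁻¹ * z * x) * x⁻¹ = z by group⟩

theorem fixedSub_cj (φ : H →* MulAut V) (A : Subgroup H) (x : H) :
    fixedSub φ (cj x A : Set H) = (fixedSub φ (A : Set H)).map (φ x).toMonoidHom :=
  H69.SFour.fixedSub_cj φ A x

namespace Ctx

variable {φ : H →* MulAut V} {A M : Subgroup H} {g : H} {k : ℕ} {W : Subgroup V}

theorem quad_cj (c : Ctx φ A g k W M) (x : H) {t : H} (ht : t ∈ cj x A) (v : V) :
    delta φ t v ∈ fixedSub φ (cj x A : Set H) := by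
  obtain ⟨a, ha, rfl⟩ := ht
  rw [fixedSub_cj]
  refine ⟨delta φ a (φ x⁻¹ v), c.quad a ha _, ?_⟩
  show φ x _ = delta φ (x * a * x⁻¹) v
  rw [delta_conj]

theorem M_ne_top (c : Ctx φ A g k W M) : M ≠ ⊤ := fun e => c.not_le_M (e ▸ le_top)

theorem not_le_cj (c : Ctx φ A g k W M) : ¬ A ≤ cj g M := fun h => by
  have h1 : (⊤ : Subgroup H) ≤ cj g M := c.gen ▸ sup_le h (cj_mono g c.le_M)
  have h2 := cj_mono g⁻¹ h1
  rw [cj_cj, inv_mul_cancel, cj_one] at h2
  rw [cj_top] at h2
  exact c.M_ne_top (top_le_iff.1 h2)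

theorem uniq_cj (c : Ctx φ A g k W M) (x : H) {Y : Subgroup H} (hY : cj x A ≤ Y) (hne : Y ≠ ⊤) :
    Y ≤ cj x M := by
  have h1 := cj_mono x⁻¹ hY
  rw [cj_cj, inv_mul_cancel, cj_one] at h1
  have h2 : cj x⁻¹ Y ≠ ⊤ := fun e => hne (by
    have := congrArg (cj x) e
    rw [cj_cj, mul_inv_cancel, cj_one] at this
    rw [this, cj_top])
  have h3 := cj_mono x (c.uniq _ h1 h2)
  rwa [cj_cj, mul_inv_cancel, cj_one] at h3

/-- `C_V(A) ∩ C_V(A^x) = I` if the two generate. -/
theorem inf_le_univ {B B' : Subgroup H} (h : B ⊔ B' = ⊤) :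
    fixedSub φ (B : Set H) ⊓ fixedSub φ (B' : Set H) ≤ fixedSub φ (Set.univ : Set H) := by
  intro v hv x _
  have hle : B ⊔ B' ≤ H69.SFour.stabSub φ (Subgroup.zpowers v) := by
    refine sup_le (fun b hb w hw => ?_) (fun b hb w hw => ?_)
    · obtain ⟨n, rfl⟩ := hw
      rw [map_zpow, hv.1 b hb]
    · obtain ⟨n, rfl⟩ := hw
      rw [map_zpow, hv.2 b hb]
  exact hle (h.symm ▸ Subgroup.mem_top x) v (Subgroup.mem_zpowers v)

theorem inf_fixed (c : Ctx φ A g k W M) :
    fixedSub φ (A : Set H) ⊓ fixedSub φ (cj g A : Set H) = fixedSub φ (Set.univ : Set H) :=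
  le_antisymm (inf_le_univ c.gen) (le_inf (univ_le_fixed φ _) (univ_le_fixed φ _))

/-- A point fixed by a conjugate of `A` and moved only inside `I` lies in `I`. -/
theorem mem_univ (c : Ctx φ A g k W M) {v : V} {x : H} (hv : v ∈ fixedSub φ (cj x A : Set H))
    (hall : ∀ h, delta φ h v ∈ fixedSub φ (Set.univ : Set H)) :
    v ∈ fixedSub φ (Set.univ : Set H) := by
  let f : H →* V :=
    { toFun := fun h => delta φ h v
      map_one' := by rw [delta_apply, map_one, MulAut.one_apply, div_self']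
      map_mul' := fun h h' => by
        show delta φ (h * h') v = _
        rw [delta_mul, hall h' h trivial, mul_comm] }
  have hconj : ∀ (a y : H), f (y * a * y⁻¹) = f a := fun a y => by
    rw [map_mul, map_mul, map_inv, mul_comm (f y), mul_inv_cancel_right]
  have hA : ∀ a ∈ A, f a = 1 := fun a ha => by
    rw [← hconj a x]
    show delta φ _ v = 1
    rw [delta_apply, hv _ (conj_mem_cj ha), div_self']
  have hle : A ⊔ cj g A ≤ f.ker := by
    refine sup_le (fun a ha => hA a ha) ?_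
    rintro _ ⟨a, ha, rfl⟩
    show f (g * a * g⁻¹) = 1
    rw [hconj, hA a ha]
  intro h _
  have h5 : delta φ h v = 1 := hle (c.gen.symm ▸ Subgroup.mem_top h)
  rwa [delta_apply, div_eq_one] at h5

/-- An element outside `M^x` moves the fixed points of `A^x` faithfully modulo `I`. -/
theorem inj_mod (c : Ctx φ A g k W M) {x a : H} (ha : a ∉ cj x M) {v : V}
    (hv : v ∈ fixedSub φ (cj x A : Set H))
    (hd : delta φ a v ∈ fixedSub φ (Set.univ : Set H)) : v ∈ fixedSub φ (Set.univ : Set H) := by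
  set K := stabMod φ (fixedSub φ (Set.univ : Set H)) le_rfl v with hK
  have hxK : cj x A ≤ K := fun b hb => by
    rw [mem_stabMod, delta_apply, hv b hb, div_self']
    exact one_mem _
  by_cases hKt : K = ⊤
  · exact c.mem_univ hv fun h => mem_stabMod.1 (show h ∈ K from hKt ▸ Subgroup.mem_top h)
  · exact absurd (c.uniq_cj x hxK hKt hd) ha

theorem exists_left (c : Ctx φ A g k W M) : ∃ a ∈ A, a ∉ cj g M :=
  SetLike.not_le_iff_exists.1 c.not_le_cj

theorem exists_right (c : Ctx φ A g k W M) : ∃ y ∈ cj g A, y ∉ cj 1 M := by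
  obtain ⟨y, hy, hyM⟩ := SetLike.not_le_iff_exists.1 c.not_le_M
  exact ⟨y, hy, by rwa [cj_one]⟩

theorem inv_of_delta {S : Subgroup V} [Finite V] (c : Ctx φ A g k W M)
    (hA : ∀ a ∈ A, ∀ v ∈ S, delta φ a v ∈ S) (hT : ∀ a ∈ cj g A, ∀ v ∈ S, delta φ a v ∈ S)
    (h : H) {v : V} (hv : v ∈ S) : φ h v ∈ S := by
  have hmove : ∀ a : H, (∀ w ∈ S, delta φ a w ∈ S) → a ∈ normSub φ S := fun a ha =>
    mem_normSub fun w hw => by
      have := S.mul_mem (ha w hw) hw
      rwa [delta_apply, div_mul_cancel] at this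
  have hle : A ⊔ cj g A ≤ normSub φ S :=
    sup_le (fun a ha => hmove a (hA a ha)) fun a ha => hmove a (hT a ha)
  exact mem_of_mem_normSub (hle (c.gen.symm ▸ Subgroup.mem_top h)) hv

theorem isSub_sup [Finite V] (c : Ctx φ A g k W M) :
    IsSub φ A g (fixedSub φ (A : Set H) ⊔ fixedSub φ (cj g A : Set H)) where
  inv := fun h _ hv => c.inv_of_delta
    (fun a ha w _ => Subgroup.mem_sup_left (c.quad a ha w))
    (fun a ha w _ => Subgroup.mem_sup_right (c.quad_cj g ha w)) h hv
  ge := (univ_le_fixed φ _).trans le_sup_left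
  le := le_rfl

variable [Finite V]

/-- The basic splitting: `N = (N ∩ C_V(A)) (N ∩ C_V(A^g))`, both of the same order. -/
theorem split (c : Ctx φ A g k W M) {N : Subgroup V} (hN : IsSub φ A g N) :
    N = (N ⊓ fixedSub φ (A : Set H)) ⊔ (N ⊓ fixedSub φ (cj g A : Set H)) ∧
      Nat.card N * Nat.card (fixedSub φ (Set.univ : Set H)) =
        Nat.card (N ⊓ fixedSub φ (A : Set H) : Subgroup V) *
          Nat.card (N ⊓ fixedSub φ (A : Set H) : Subgroup V) := by
  set I := fixedSub φ (Set.univ : Set H) with hI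
  set C := fixedSub φ (A : Set H) with hC
  set C' := fixedSub φ (cj g A : Set H) with hC'
  have side : ∀ (a x x' : H), a ∈ cj x A → a ∉ cj x' M →
      N ≤ fixedSub φ (cj x A : Set H) ⊔ fixedSub φ (cj x' A : Set H) →
      Nat.card N * Nat.card I ≤ Nat.card (N ⊓ fixedSub φ (cj x A : Set H) : Subgroup V) *
        Nat.card (N ⊓ fixedSub φ (cj x A : Set H) : Subgroup V) := by
    intro a x x' ha ha' hle
    set X := N ⊓ fixedSub φ (cj x A : Set H) with hX
    set f : N →* V ⧸ I := ((QuotientGroup.mk' I).comp (delta φ a)).comp N.subtype with hf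
    have hker : f.ker.map N.subtype ≤ X := by
      rintro _ ⟨v, hv, rfl⟩
      refine ⟨v.2, ?_⟩
      have hv' : delta φ a v ∈ I := (QuotientGroup.eq_one_iff _).1 hv
      obtain ⟨p, hp, q, hq, e⟩ := Subgroup.mem_sup.1 (hle v.2)
      have hp1 : delta φ a p = 1 := by rw [delta_apply, hp a ha, div_self']
      rw [← e, map_mul, hp1, one_mul] at hv'
      show (v : V) ∈ fixedSub φ (cj x A : Set H)
      rw [← e]
      exact mul_mem hp (univ_le_fixed φ _ (c.inj_mod ha' hq hv'))
    have hrange : f.range ≤ X.map (QuotientGroup.mk' I) := by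
      rintro _ ⟨v, rfl⟩
      exact ⟨_, ⟨N.div_mem (hN.inv a v v.2) v.2, c.quad_cj x ha v⟩, rfl⟩
    have h1 : Nat.card f.range * Nat.card f.ker = Nat.card N := by
      rw [← Subgroup.index_ker, f.ker.index_mul_card]
    have hIX : I ≤ X := le_inf hN.ge (univ_le_fixed φ _)
    have h2 : Nat.card (X.map (QuotientGroup.mk' I)) * Nat.card I = Nat.card X := by
      have := H69.SFour.card_map_mul_card_inf_ker (QuotientGroup.mk' I) X
      rwa [QuotientGroup.ker_mk', inf_eq_right.2 hIX] at this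
    have h3 : Nat.card f.ker ≤ Nat.card X := by
      rw [← Subgroup.card_map_of_injective N.subtype_injective]
      exact Subgroup.card_le_of_le hker
    rw [← h1, ← h2]
    calc Nat.card f.range * Nat.card f.ker * Nat.card I
        ≤ Nat.card (X.map (QuotientGroup.mk' I)) * Nat.card X * Nat.card I :=
          Nat.mul_le_mul_right _ (Nat.mul_le_mul (Subgroup.card_le_of_le hrange) h3)
      _ = Nat.card (X.map (QuotientGroup.mk' I)) * Nat.card I * Nat.card X := by ring
      _ = _ := by rw [h2]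
  obtain ⟨a, ha, ha'⟩ := c.exists_left
  obtain ⟨y, hy, hy'⟩ := c.exists_right
  have hp := side a 1 g (by rwa [cj_one]) ha' (by rw [cj_one]; exact hN.le)
  have hq := side y g 1 hy hy' (by rw [cj_one, sup_comm]; exact hN.le)
  rw [cj_one, ← hC] at hp
  rw [← hC'] at hq
  have hpq := card_sup_mul_card_inf (N ⊓ C) (N ⊓ C')
  rw [show (N ⊓ C) ⊓ (N ⊓ C') = I by
    rw [inf_inf_inf_comm, inf_idem, hC, hC', c.inf_fixed, inf_eq_right.2 hN.ge]] at hpq
  have hsup : (N ⊓ C) ⊔ (N ⊓ C') ≤ N := sup_le inf_le_left inf_le_left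
  have hs := Subgroup.card_le_of_le hsup
  have hI0 : 0 < Nat.card I := Nat.card_pos
  have hle : Nat.card (N ⊓ C : Subgroup V) * Nat.card (N ⊓ C' : Subgroup V) ≤
      Nat.card N * Nat.card I := hpq ▸ Nat.mul_le_mul_right _ hs
  have e1 : Nat.card (N ⊓ C' : Subgroup V) ≤ Nat.card (N ⊓ C : Subgroup V) :=
    Nat.le_of_mul_le_mul_left (hle.trans hp) Nat.card_pos
  have e2 : Nat.card (N ⊓ C : Subgroup V) ≤ Nat.card (N ⊓ C' : Subgroup V) :=
    Nat.le_of_mul_le_mul_right (hle.trans hq) Nat.card_pos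
  have e3 : Nat.card N * Nat.card I =
      Nat.card (N ⊓ C : Subgroup V) * Nat.card (N ⊓ C : Subgroup V) := by
    refine le_antisymm hp ?_
    rw [le_antisymm e1 e2] at hle
    exact hle
  refine ⟨(Subgroup.eq_of_le_of_card_ge hsup ?_).symm, e3⟩
  refine Nat.le_of_mul_le_mul_right ?_ hI0
  rw [hpq, e3, le_antisymm e1 e2]

omit [Finite V] in
theorem width_mul (_c : Ctx φ A g k W M) {N : Subgroup V} (hN : IsSub φ A g N) :
    width φ A N * Nat.card (fixedSub φ (Set.univ : Set H)) =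
      Nat.card (N ⊓ fixedSub φ (A : Set H) : Subgroup V) := by
  have h := Subgroup.relIndex_mul_relIndex (⊥ : Subgroup V) (fixedSub φ (Set.univ : Set H))
    (N ⊓ fixedSub φ (A : Set H)) bot_le (le_inf hN.ge (univ_le_fixed φ _))
  rw [Subgroup.relIndex_bot_left, Subgroup.relIndex_bot_left, mul_comm] at h
  exact h

/-- `|N / I| = width²`. -/
theorem card_sub (c : Ctx φ A g k W M) {N : Subgroup V} (hN : IsSub φ A g N) :
    Nat.card N = width φ A N * width φ A N * Nat.card (fixedSub φ (Set.univ : Set H)) := by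
  refine Nat.eq_of_mul_eq_mul_right (Nat.card_pos : 0 < Nat.card (fixedSub φ (Set.univ : Set H))) ?_
  rw [(c.split hN).2, ← c.width_mul hN]
  ring

/-- `|C_V(A) N| = |C_V(A)| width`. -/
theorem card_sup_fixed (c : Ctx φ A g k W M) {N : Subgroup V} (hN : IsSub φ A g N) :
    Nat.card (fixedSub φ (A : Set H) ⊔ N : Subgroup V) =
      Nat.card (fixedSub φ (A : Set H)) * width φ A N := by
  have h := card_sup_mul_card_inf (fixedSub φ (A : Set H)) N
  rw [c.card_sub hN, inf_comm (fixedSub φ (A : Set H)) N, ← c.width_mul hN] at h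
  refine Nat.eq_of_mul_eq_mul_right (Nat.mul_pos
    (Nat.pos_of_ne_zero Subgroup.index_ne_zero_of_finite : 0 < width φ A N)
    (Nat.card_pos : 0 < Nat.card (fixedSub φ (Set.univ : Set H)))) ?_
  rw [h]; ring

theorem width_le (c : Ctx φ A g k W M) {N : Subgroup V} (hN : IsSub φ A g N) :
    width φ A N ≤ k := by
  have h := Subgroup.card_le_card_group (fixedSub φ (A : Set H) ⊔ N)
  rw [c.card_sup_fixed hN, mul_comm] at h
  exact Nat.le_of_mul_le_mul_right (h.trans c.off) Nat.card_pos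

/-- A subgroup equal to `I` on `C_V(A)` is `I`. -/
theorem eq_univ_of_inf_le (c : Ctx φ A g k W M) {N : Subgroup V} (hN : IsSub φ A g N)
    (h : N ⊓ fixedSub φ (A : Set H) ≤ fixedSub φ (Set.univ : Set H)) :
    N = fixedSub φ (Set.univ : Set H) := by
  have hw : width φ A N = 1 := Subgroup.relIndex_eq_one.2 h
  refine (Subgroup.eq_of_le_of_card_ge hN.ge ?_).symm
  rw [c.card_sub hN, hw, one_mul, one_mul]

theorem exists_irreducible (_c : Ctx φ A g k W M) {N : Subgroup V} (hN : IsSub φ A g N)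
    (hne : N ≠ fixedSub φ (Set.univ : Set H)) :
    ∃ V₁, IsSub φ A g V₁ ∧ V₁ ≤ N ∧ V₁ ≠ fixedSub φ (Set.univ : Set H) ∧
      ∀ X ≤ V₁, IsSub φ A g X → X = fixedSub φ (Set.univ : Set H) ∨ X = V₁ := by
  obtain ⟨V₁, ⟨h1, h2, h3⟩, hmin⟩ := Set.Finite.exists_minimal
    (s := {X : Subgroup V | IsSub φ A g X ∧ X ≤ N ∧ X ≠ fixedSub φ (Set.univ : Set H)})
    (Set.toFinite _) ⟨N, hN, le_rfl, hne⟩
  refine ⟨V₁, h1, h2, h3, fun X hX hs => ?_⟩
  by_cases e : X = fixedSub φ (Set.univ : Set H)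
  · exact Or.inl e
  · exact Or.inr (le_antisymm hX (hmin ⟨hs, hX.trans h2, e⟩ hX))

end Ctx

end Cfsg.Agent.H96.Offender
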